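/-
Odd p-groups with a cyclic subgroup of index p; normal elementary abelian subgroups of order p².
-/
import Cfsg.Agent.PLocal.Replacement
import Cfsg.Agent.Transfer.PGroupNormal
import Mathlib.NumberTheory.Multiplicity
import Mathlib.GroupTheory.SpecificGroups.Cyclic

set_option linter.unusedSectionVars false
set_option linter.style.haveILetI false

namespace Cfsg.Agent.PLocal

open Subgroup Cfsg
open scoped commutatorElement

variable {K : Type*} [Group K] [Finite K] {p : ℕ} [hp : Fact p.Prime]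

theorem sub_one_dvd_of_pow_sub_one_dvd (hp2 : p ≠ 2) {u : ℤ} {n : ℕ} (hn : 1 ≤ n)
    (h : (p : ℤ) ^ n ∣ u ^ p - 1) : (p : ℤ) ^ n ∣ (u - 1) * p := by
  have hpP : Prime (p : ℤ) := Nat.prime_iff_prime_int.1 hp.out
  have h1 : (p : ℤ) ∣ u - 1 := by
    have h2 : (p : ℤ) ∣ u ^ p - 1 := (dvd_pow_self _ (by omega)).trans h
    rw [← ZMod.intCast_zmod_eq_zero_iff_dvd] at h2 ⊢
    push_cast at h2 ⊢
    rwa [ZMod.pow_card] at h2
  have hndvd : ¬ (p : ℤ) ∣ u := fun h => hpP.not_dvd_one (by simpa using dvd_sub h h1)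
  have hm := Int.emultiplicity_pow_sub_pow hp.out (hp.out.odd_of_ne_two hp2) h1 hndvd p
  rw [one_pow, hp.out.emultiplicity_self] at hm
  have hle := le_emultiplicity_of_pow_dvd h
  rw [hm] at hle
  obtain ⟨l, rfl⟩ : ∃ l, n = l + 1 := ⟨n - 1, by omega⟩
  push_cast at hle
  obtain ⟨c, hc⟩ := pow_dvd_of_le_emultiplicity ((ENat.add_le_add_iff_right (by simp)).1 hle)
  exact ⟨c, by rw [hc, pow_succ]; ring⟩

/-- The structure of a noncyclic odd p-group with a cyclic subgroup of index p. -/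
theorem cyclic_maximal_structure (hp2 : p ≠ 2) (hK : IsPGroup p K) (C : Subgroup K) (hC : IsCyclic C)
    (hCi : C.index = p) (hnc : ¬ IsCyclic K) :
    ∃ a b : K, ∃ u : ℤ, zpowers a = C ∧ b ∉ C ∧ b ^ p = 1 ∧ b * a * b⁻¹ = a ^ u ∧
      ((orderOf a : ℤ) ∣ (u - 1) * p) ∧ (∀ x y : K, (x * y) ^ p = x ^ p * y ^ p) := by
  obtain ⟨a, rfl⟩ := (Subgroup.isCyclic_iff_exists_zpowers_eq_top C).1 hC
  haveI hCn : (zpowers a).Normal := by
    obtain ⟨k, hk⟩ := hK.exists_card_eq
    refine Subgroup.normal_of_index_eq_minFac_card ?_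
    have hk0 : k ≠ 0 := by
      rintro rfl
      rw [pow_zero] at hk
      have := (zpowers a).card_mul_index
      rw [hCi, hk] at this
      exact hp.out.ne_one (Nat.eq_one_of_mul_eq_one_left this)
    rw [hCi, hk, Nat.pow_minFac hk0, hp.out.minFac_eq]
  obtain ⟨b₀, hb₀⟩ : ∃ b, b ∉ zpowers a := by
    by_contra hcon
    push Not at hcon
    rw [show zpowers a = ⊤ from eq_top_iff.2 fun g _ => hcon g, index_top] at hCi
    exact hp.out.ne_one hCi.symm
  have hbp : ∀ b : K, b ^ p ∈ zpowers a := fun b => hCi ▸ Subgroup.pow_index_mem (zpowers a) b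
  obtain ⟨u, hu⟩ := mem_zpowers_iff.1 (hCn.conj_mem a (mem_zpowers a) b₀)
  have hconj : ∀ i : ℤ, b₀ * a ^ i * b₀⁻¹ = a ^ (u * i) := fun i => by rw [← conj_zpow, ← hu, ← zpow_mul]
  have hiter : ∀ k : ℕ, b₀ ^ k * a * (b₀ ^ k)⁻¹ = a ^ (u ^ k) := by
    intro k
    induction k with
    | zero => simp
    | succ k ih => rw [pow_succ', pow_succ', ← hconj, ← ih]; group
  obtain ⟨n, hn⟩ := IsPGroup.iff_orderOf.mp hK a
  have hdvd : (p : ℤ) ^ n ∣ u ^ p - 1 := by
    obtain ⟨s, hs⟩ := mem_zpowers_iff.1 (hbp b₀)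
    have h := hiter p
    rw [← hs, show a ^ s * a * (a ^ s)⁻¹ = a by group] at h
    have h' : a ^ (u ^ p - 1) = 1 := by rw [zpow_sub, zpow_one, ← h, mul_inv_cancel]
    rw [← orderOf_dvd_iff_zpow_eq_one, hn] at h'
    exact_mod_cast h'
  have hu1 : (orderOf a : ℤ) ∣ (u - 1) * p := by
    rcases Nat.eq_zero_or_pos n with rfl | hn0
    · rw [hn, pow_zero]; exact one_dvd _
    rw [hn]; push_cast
    exact sub_one_dvd_of_pow_sub_one_dvd hp2 hn0 hdvd
  -- the commutator `z` is central of order dividing `p`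
  set z := a ^ (u - 1) with hz
  have hzp : z ^ p = 1 := by
    rw [hz, ← zpow_natCast, ← zpow_mul, ← orderOf_dvd_iff_zpow_eq_one]
    exact hu1
  have hza : Commute z a := (Commute.refl a).zpow_left _
  have hzb : Commute z b₀ := by
    have e : b₀ * z * b₀⁻¹ = z := by
      rw [hz, hconj, ← mul_inv_eq_one, ← zpow_neg, ← zpow_add, ← orderOf_dvd_iff_zpow_eq_one]
      rcases Nat.eq_zero_or_pos n with rfl | hn0
      · rw [hn, pow_zero]; exact one_dvd _
      obtain ⟨c, hc⟩ : (p : ℤ) ∣ u - 1 := by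
        have h2 : (p : ℤ) ∣ u ^ p - 1 := (dvd_pow_self _ hn0.ne').trans hdvd
        rw [← ZMod.intCast_zmod_eq_zero_iff_dvd] at h2 ⊢
        push_cast at h2 ⊢
        rwa [ZMod.pow_card] at h2
      obtain ⟨d, hd⟩ := hu1
      refine ⟨d * c, ?_⟩
      linear_combination (u - 1) * hc + c * hd
    exact ((mul_inv_eq_iff_eq_mul.mp e).symm)
  have hgen : closure ({a, b₀} : Set K) = ⊤ := by
    rw [← Subgroup.index_eq_one]
    set M := closure ({a, b₀} : Set K)
    have hle : zpowers a ≤ M := zpowers_le.mpr (subset_closure (Or.inl rfl))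
    have h := Subgroup.relIndex_mul_index hle
    rw [hCi] at h
    rcases (Nat.dvd_prime hp.out).mp (Dvd.intro_left _ h) with h1 | h1
    · exact h1
    · exfalso
      rw [h1, Nat.mul_eq_right hp.out.ne_zero, Subgroup.relIndex_eq_one] at h
      exact hb₀ (h (subset_closure (Or.inr rfl)))
  have hzc : ∀ x : K, Commute z x := by
    intro x
    have hle : closure ({a, b₀} : Set K) ≤ centralizer ({z} : Set K) := (closure_le _).mpr (by
      rintro y (rfl | rfl)
      · exact Subgroup.mem_centralizer_singleton_iff.mpr hza.symm.eq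
      · exact Subgroup.mem_centralizer_singleton_iff.mpr hzb.symm.eq)
    exact (Subgroup.mem_centralizer_singleton_iff.mp (hle (hgen ▸ mem_top x))).symm
  haveI : (zpowers z).Normal := ⟨fun y hy g => by
    obtain ⟨i, rfl⟩ := hy
    show g * z ^ i * g⁻¹ ∈ zpowers z
    rw [← ((hzc g).zpow_left i).eq, mul_inv_cancel_right]
    exact zpow_mem_zpowers z i⟩
  have hab : ∀ x y : K, (QuotientGroup.mk' (zpowers z)) x * QuotientGroup.mk' (zpowers z) y =
      QuotientGroup.mk' (zpowers z) y * QuotientGroup.mk' (zpowers z) x := by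
    have h0 : Commute (QuotientGroup.mk' (zpowers z) b₀) (QuotientGroup.mk' (zpowers z) a) := by
      show _ = _
      rw [← map_mul, ← map_mul, QuotientGroup.mk'_apply, QuotientGroup.mk'_apply, QuotientGroup.eq]
      refine ⟨-1, ?_⟩
      show z ^ (-1 : ℤ) = _
      have : a * b₀ = z⁻¹ * (b₀ * a) := by
        rw [show b₀ * a = a ^ u * b₀ by rw [hu]; group, hz]; group
      rw [this, ← mul_assoc, ← ((hzc (b₀ * a)⁻¹).inv_left).eq]
      group
    have hle : closure ({a, b₀} : Set K) ≤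
        (centralizer ({QuotientGroup.mk' (zpowers z) a, QuotientGroup.mk' (zpowers z) b₀} : Set _)).comap
          (QuotientGroup.mk' (zpowers z)) := (closure_le _).mpr (by
      rintro y (rfl | rfl) <;> rw [SetLike.mem_coe, Subgroup.mem_comap, Subgroup.mem_centralizer_iff] <;>
        rintro w (rfl | rfl)
      · rfl
      · exact h0.eq
      · exact h0.symm.eq
      · rfl)
    intro x y
    have hx := hle (hgen ▸ mem_top x)
    have hle2 : closure ({a, b₀} : Set K) ≤ (centralizer ({QuotientGroup.mk' (zpowers z) x} : Set _)).comap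
        (QuotientGroup.mk' (zpowers z)) := (closure_le _).mpr (by
      rintro w (rfl | rfl) <;> rw [SetLike.mem_coe, Subgroup.mem_comap, Subgroup.mem_centralizer_singleton_iff]
      · exact Subgroup.mem_centralizer_iff.mp (Subgroup.mem_comap.mp hx) _ (Or.inl rfl)
      · exact Subgroup.mem_centralizer_iff.mp (Subgroup.mem_comap.mp hx) _ (Or.inr rfl))
    exact (Subgroup.mem_centralizer_singleton_iff.mp (Subgroup.mem_comap.mp (hle2 (hgen ▸ mem_top y)))).symm
  have hpow : ∀ x y : K, (x * y) ^ p = x ^ p * y ^ p := by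
    intro x y
    obtain ⟨i, hi⟩ : ∃ i : ℤ, z ^ i = (x * y)⁻¹ * (y * x) :=
      mem_zpowers_iff.mp (QuotientGroup.eq.mp (show QuotientGroup.mk' (zpowers z) (x * y) =
        QuotientGroup.mk' (zpowers z) (y * x) by rw [map_mul, map_mul, hab x y]))
    obtain ⟨-, h⟩ := class_two_pow x y (z ^ i) (by rw [hi]; group) ((hzc x).zpow_left i) ((hzc y).zpow_left i) p
    obtain ⟨c, hc⟩ := hp.out.dvd_choose_self (k := 2) (by omega) (lt_of_le_of_ne hp.out.two_le (Ne.symm hp2))
    rw [h, hc, pow_mul, show (z ^ i) ^ p = (z ^ p) ^ i by rw [← zpow_natCast (z ^ i), zpow_comm, zpow_natCast], hzp, one_zpow, one_pow, mul_one]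
  obtain ⟨s, hs⟩ := mem_zpowers_iff.1 (hbp b₀)
  have hsp : (p : ℤ) ∣ s := by
    by_contra hns
    apply hnc
    refine ⟨b₀, fun x => ?_⟩
    suffices h : zpowers b₀ = ⊤ by show x ∈ zpowers b₀; rw [h]; trivial
    rw [eq_top_iff, ← hgen, closure_le]
    rintro y (rfl | rfl)
    · have hco : IsCoprime ((p : ℤ) ^ n) s :=
        ((Nat.prime_iff_prime_int.1 hp.out).coprime_iff_not_dvd.mpr hns).pow_left
      obtain ⟨c, d, hcd⟩ := hco
      refine ⟨(p : ℤ) * d, ?_⟩
      show b₀ ^ ((p : ℤ) * d) = _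
      rw [zpow_mul, zpow_natCast, ← hs, ← zpow_mul]
      conv_rhs => rw [← zpow_one y, ← hcd, zpow_add]
      have h1 : y ^ (c * (p : ℤ) ^ n) = 1 := by
        rw [← orderOf_dvd_iff_zpow_eq_one, hn]; push_cast; exact dvd_mul_left _ _
      rw [h1, one_mul, mul_comm d]
    · exact mem_zpowers _
  obtain ⟨t, ht⟩ := hsp
  refine ⟨a, b₀ * a ^ (-t), u, rfl, fun h => hb₀ ?_, ?_, ?_, hu1, hpow⟩
  · have := mul_mem h (zpow_mem (mem_zpowers a) t)
    rwa [mul_assoc, ← zpow_add, neg_add_cancel, zpow_zero, mul_one] at this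
  · rw [hpow, ← hs, ← zpow_natCast, ← zpow_mul, ← zpow_add, ← zpow_zero a]
    congr 1
    rw [ht]; ring
  · rw [hu]; group

/-- The elements of order dividing p form an elementary abelian subgroup of order p². -/
theorem exists_omega_of_cyclic_maximal (hp2 : p ≠ 2) (hK : IsPGroup p K) (C : Subgroup K) (hC : IsCyclic C)
    (hCi : C.index = p) (hnc : ¬ IsCyclic K) :
    ∃ A : Subgroup K, IsElementaryAbelian p A ∧ Nat.card A = p ^ 2 ∧ ∀ x, x ∈ A ↔ x ^ p = 1 := by
  obtain ⟨a, b, u, rfl, hb, hbp, -, -, hpow⟩ := cyclic_maximal_structure hp2 hK C hC hCi hnc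
  let f : K →* K := MonoidHom.mk' (fun x => x ^ p) hpow
  have ha0 : p ∣ orderOf a := by
    obtain ⟨n, hn⟩ := IsPGroup.iff_orderOf.mp hK a
    rcases Nat.eq_zero_or_pos n with rfl | hn0
    · exfalso
      rw [pow_zero, orderOf_eq_one_iff] at hn
      apply hnc
      have h := (zpowers a).card_mul_index
      rw [hCi, hn, Subgroup.zpowers_one_eq_bot, Subgroup.card_bot, one_mul] at h
      exact isCyclic_of_prime_card h.symm
    · exact hn ▸ dvd_pow_self p hn0.ne'
  have hrange : f.range = zpowers (a ^ p) := by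
    refine le_antisymm ?_ (zpowers_le.mpr ⟨a, rfl⟩)
    rintro _ ⟨x, rfl⟩
    show x ^ p ∈ zpowers (a ^ p)
    obtain ⟨i, y, e⟩ : ∃ i : ℤ, ∃ j : ℕ, b ^ j * a ^ i = x := by
      have hnorm : (zpowers a).Normal := by
        obtain ⟨k, hk⟩ := hK.exists_card_eq
        refine Subgroup.normal_of_index_eq_minFac_card ?_
        rw [hCi, hk]
        rcases Nat.eq_zero_or_pos k with rfl | hk0
        · exfalso
          rw [pow_zero] at hk
          haveI := (Nat.card_eq_one_iff_unique.mp hk).1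
          exact hnc inferInstance
        rw [Nat.pow_minFac hk0.ne', hp.out.minFac_eq]
      have hcard : Nat.card (K ⧸ zpowers a) = p := hCi
      have hne : (QuotientGroup.mk b : K ⧸ zpowers a) ≠ 1 := fun e => hb ((QuotientGroup.eq_one_iff b).mp e)
      obtain ⟨j, hj⟩ := mem_powers_iff_mem_zpowers.mpr
        (mem_zpowers_of_prime_card (p := p) hcard hne (g' := (QuotientGroup.mk x : K ⧸ zpowers a)))
      obtain ⟨i, hi⟩ := mem_zpowers_iff.mp (QuotientGroup.eq.mp (show (QuotientGroup.mk (b ^ j) : K ⧸ zpowers a) = QuotientGroup.mk x from hj))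
      exact ⟨i, j, by rw [hi, mul_inv_cancel_left]⟩
    rw [← e, hpow, ← pow_mul, mul_comm y, pow_mul, hbp, one_pow, one_mul, ← zpow_natCast (a ^ i), zpow_comm,
      zpow_natCast]
    exact zpow_mem_zpowers _ i
  have hcard : Nat.card f.ker = p ^ 2 := by
    have h1 := Subgroup.card_mul_index f.ker
    rw [Subgroup.index_ker, hrange, Nat.card_zpowers, ← (zpowers a).card_mul_index, hCi, Nat.card_zpowers,
      orderOf_pow' a hp.out.ne_zero, Nat.gcd_eq_right ha0] at h1
    obtain ⟨d, hd⟩ := ha0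
    rw [hd, Nat.mul_div_cancel_left d hp.out.pos] at h1
    have hd0 : 0 < d := by
      rcases Nat.eq_zero_or_pos d with rfl | h
      · rw [mul_zero] at hd; exact absurd hd (orderOf_pos a).ne'
      · exact h
    exact Nat.eq_of_mul_eq_mul_right hd0 (by rw [h1]; ring)
  refine ⟨f.ker, ⟨⟨⟨fun x y => Subtype.ext ?_⟩⟩, fun x hx => hx⟩, hcard, fun x => MonoidHom.mem_ker⟩
  exact congrArg Subtype.val (IsPGroup.commutative_of_card_eq_prime_sq hcard x y)

end Cfsg.Agent.PLocal

namespace Cfsg.Agent.PLocal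

open Subgroup Cfsg

variable {R : Type*} [Group R] [Finite R] {p : ℕ} [hp : Fact p.Prime]

/-- Every noncyclic normal subgroup of an odd p-group contains a normal elementary abelian subgroup of order p². -/
theorem exists_normal_ea_sq_le (hp2 : p ≠ 2) (hR : IsPGroup p R) (S : Subgroup R) [S.Normal] (hS : ¬ IsCyclic S) :
    ∃ A : Subgroup R, A ≤ S ∧ A.Normal ∧ IsElementaryAbelian p A ∧ Nat.card A = p ^ 2 := by
  obtain ⟨K, hKS, ⟨hKn, hKc⟩, hKmin⟩ := (Set.toFinite {K : Subgroup R | K.Normal ∧ ¬ IsCyclic K}).exists_le_minimal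
    (a := S) ⟨inferInstance, hS⟩
  haveI := hKn
  obtain ⟨k, hk⟩ := (hR.to_subgroup K).exists_card_eq
  have hk1 : 1 ≤ k := by
    rcases Nat.eq_zero_or_pos k with rfl | h
    · exfalso
      rw [pow_zero] at hk
      haveI := (Nat.card_eq_one_iff_unique.mp hk).1
      exact hKc inferInstance
    · exact h
  obtain ⟨M, hMn, hMK, hMc⟩ := Transfer.PNormal.exists_normal_card hR hKn (k - 1)
    (hk ▸ Nat.pow_le_pow_right hp.out.pos (Nat.sub_le k 1))
  have hMcyc : IsCyclic M := by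
    by_contra hc
    have h := le_antisymm hMK (hKmin ⟨hMn, hc⟩ hMK)
    rw [h, hk] at hMc
    exact absurd (Nat.pow_right_injective hp.out.two_le hMc) (by omega)
  have hMi : (M.subgroupOf K).index = p := by
    have h := (M.subgroupOf K).card_mul_index
    rw [Nat.card_congr (subgroupOfEquivOfLe hMK).toEquiv, hMc, hk,
      show p ^ k = p ^ (k - 1) * p by rw [← pow_succ, Nat.sub_add_cancel hk1]] at h
    exact Nat.eq_of_mul_eq_mul_left (pow_pos hp.out.pos _) h
  obtain ⟨A, hA, hAc, hmem⟩ := exists_omega_of_cyclic_maximal hp2 (hR.to_subgroup K) (M.subgroupOf K)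
    ((subgroupOfEquivOfLe hMK).isCyclic.mpr hMcyc) hMi hKc
  refine ⟨A.map K.subtype, (Subgroup.map_subtype_le A).trans hKS, ⟨?_⟩, isEA_map hA _, ?_⟩
  · rintro _ ⟨x, hx, rfl⟩ g
    refine ⟨⟨g * x * g⁻¹, hKn.conj_mem _ x.2 g⟩, (hmem _).mpr (Subtype.ext ?_), rfl⟩
    show (g * (x : R) * g⁻¹) ^ p = 1
    rw [conj_pow, ← Subgroup.coe_pow, (hmem x).mp hx, Subgroup.coe_one, mul_one, mul_inv_cancel]
  · rw [Subgroup.card_map_of_injective K.subtype_injective, hAc]

/-- The classification of nonabelian odd p-groups with a cyclic maximal subgroup. -/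
theorem exists_modular_gens {G : Type*} [Group G] [Finite G] (hp2 : p ≠ 2) (n : ℕ) (hn : 3 ≤ n)
    (hG : Nat.card G = p ^ n) (C : Subgroup G) (hC : IsCyclic C) (hCi : C.index = p)
    (hna : ∃ x y : G, x * y ≠ y * x) :
    ∃ a b : G, orderOf a = p ^ (n - 1) ∧ orderOf b = p ∧ b ∉ zpowers a ∧ b * a * b⁻¹ = a ^ (1 + p ^ (n - 2)) := by
  obtain ⟨m, rfl⟩ : ∃ m, n = m + 2 := ⟨n - 2, by omega⟩
  obtain ⟨x₀, y₀, hxy⟩ := hna
  have hnc : ¬ IsCyclic G := fun h => hxy (by
    obtain ⟨g, hg⟩ := h.exists_generator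
    obtain ⟨i, rfl⟩ := hg x₀
    obtain ⟨j, rfl⟩ := hg y₀
    exact ((Commute.refl g).zpow_zpow i j).eq)
  obtain ⟨a, b, u, rfl, hb, hbp, hu, hu1, -⟩ := cyclic_maximal_structure hp2 (IsPGroup.of_card hG) C hC hCi hnc
  have ha : orderOf a = p ^ (m + 1) := by
    have h := (zpowers a).card_mul_index
    rw [hCi, hG, Nat.card_zpowers, show p ^ (m + 2) = p ^ (m + 1) * p by rw [← pow_succ]] at h
    exact Nat.eq_of_mul_eq_mul_right hp.out.pos h
  have hbo : orderOf b = p := orderOf_eq_prime hbp fun h => hb (h ▸ one_mem _)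
  rw [ha] at hu1
  push_cast at hu1
  have hp0 : (p : ℤ) ≠ 0 := by exact_mod_cast hp.out.ne_zero
  obtain ⟨j, hj⟩ : ((p : ℤ) ^ m) ∣ u - 1 := by
    rw [pow_succ] at hu1
    exact Int.dvd_of_mul_dvd_mul_right hp0 hu1
  have heq : ∀ i i' : ℤ, (p : ℤ) ^ (m + 1) ∣ i' - i → a ^ i = a ^ i' := fun i i' h => by
    rw [zpow_eq_zpow_iff_modEq, ha, Int.modEq_iff_dvd]
    push_cast; exact h
  have hj0 : ¬ (p : ℤ) ∣ j := by
    intro h
    apply hxy
    obtain ⟨l, hl⟩ := h
    have hcomm : b * a = a * b := by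
      have : a ^ u = a ^ (1 : ℤ) := heq _ _ ⟨-l, by linear_combination (-1) * hj - (p : ℤ) ^ m * hl⟩
      rw [zpow_one] at this
      rw [this, mul_inv_eq_iff_eq_mul] at hu
      exact hu
    have hgen : closure ({a, b} : Set G) = ⊤ := by
      rw [← Subgroup.index_eq_one]
      have hle : zpowers a ≤ closure ({a, b} : Set G) := zpowers_le.mpr (subset_closure (Or.inl rfl))
      have h := Subgroup.relIndex_mul_index hle
      rw [hCi] at h
      rcases (Nat.dvd_prime hp.out).mp (Dvd.intro_left _ h) with h1 | h1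
      · exact h1
      · exfalso
        rw [h1, Nat.mul_eq_right hp.out.ne_zero, Subgroup.relIndex_eq_one] at h
        exact hb (h (subset_closure (Or.inr rfl)))
    have hle : closure ({a, b} : Set G) ≤ centralizer ({a, b} : Set G) := (closure_le _).mpr (by
      rintro y (rfl | rfl) <;> rw [SetLike.mem_coe, Subgroup.mem_centralizer_iff] <;> rintro w (rfl | rfl)
      · rfl
      · exact hcomm
      · exact hcomm.symm
      · rfl)
    have hc2 : closure ({a, b} : Set G) ≤ centralizer ({x₀} : Set G) := (closure_le _).mpr fun w hw =>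
      Subgroup.mem_centralizer_singleton_iff.mpr (Subgroup.mem_centralizer_iff.mp (hle (hgen ▸ mem_top x₀)) w hw)
    exact (Subgroup.mem_centralizer_singleton_iff.mp (hc2 (hgen ▸ mem_top y₀))).symm
  -- replace `b` by a power
  obtain ⟨k, hk⟩ : ∃ k : ℕ, (p : ℤ) ∣ (k : ℤ) * j - 1 := by
    obtain ⟨r, s, hrs⟩ := (Nat.prime_iff_prime_int.1 hp.out).coprime_iff_not_dvd.mpr hj0
    refine ⟨(s % p).toNat, ?_⟩
    rw [Int.toNat_of_nonneg (Int.emod_nonneg _ hp0)]
    exact ⟨-r - s / p * j, by linear_combination hrs + j * (Int.emod_def s p)⟩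
  have hiter : ∀ k : ℕ, b ^ k * a * (b ^ k)⁻¹ = a ^ (1 + (k : ℤ) * j * (p : ℤ) ^ m) := by
    intro k
    induction k with
    | zero => simp
    | succ k ih =>
      calc b ^ (k + 1) * a * (b ^ (k + 1))⁻¹ = b * (b ^ k * a * (b ^ k)⁻¹) * b⁻¹ := by rw [pow_succ']; group
        _ = a ^ (u * (1 + (k : ℤ) * j * (p : ℤ) ^ m)) := by rw [ih, ← conj_zpow, hu, ← zpow_mul]
        _ = _ := heq _ _ ⟨-((p : ℤ) ^ (m - 1) * k * j * j), by
          obtain ⟨l, rfl⟩ : ∃ l, m = l + 1 := ⟨m - 1, by omega⟩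
          rw [Nat.add_sub_cancel]
          push_cast
          linear_combination (-1 - (k : ℤ) * j * (p : ℤ) ^ (l + 1)) * hj⟩
  have hkp : ¬ p ∣ k := fun h => by
    have h2 : (p : ℤ) ∣ (k : ℤ) * j := Dvd.dvd.mul_right (Int.natCast_dvd_natCast.mpr h) j
    exact (Nat.prime_iff_prime_int.1 hp.out).not_dvd_one (by simpa using dvd_sub h2 hk)
  refine ⟨a, b ^ k, ha, ?_, ?_, ?_⟩
  · rw [orderOf_pow_of_dvd_coprime_aux (hp.out.coprime_iff_not_dvd.mpr hkp) hbo]
  · intro h
    apply hb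
    obtain ⟨s, t, hst⟩ := (Nat.Coprime.cast (R := ℤ) (hp.out.coprime_iff_not_dvd.mpr hkp))
    rw [← zpow_one b, ← hst, zpow_add, mul_comm s, mul_comm t, zpow_mul, zpow_mul, zpow_natCast, zpow_natCast,
      hbp, one_zpow, one_mul]
    exact zpow_mem h t
  · rw [hiter k, ← zpow_natCast]
    obtain ⟨c, hc⟩ := hk
    refine heq _ _ ⟨-c, ?_⟩
    push_cast
    linear_combination (-(p : ℤ) ^ m) * hc
where
  orderOf_pow_of_dvd_coprime_aux {G : Type _} [Group G] {b : G} {p k : ℕ} (h : p.Coprime k) (hb : orderOf b = p) :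
      orderOf (b ^ k) = p := by
    rw [← hb] at h ⊢
    exact Nat.Coprime.orderOf_pow h

end Cfsg.Agent.PLocal
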