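/-
A functor normal in the constrained sections controls strong fusion.
-/
import Cfsg.Agent.PLocal.TransferConstrained
import Cfsg.Agent.FusionZJ.FunctorNormal
import Cfsg.Prelude.Def_LocalEven

set_option autoImplicit false
set_option linter.style.haveILetI false

namespace Cfsg.Agent.PLocal

open Cfsg Cfsg.FusionSystem Cfsg.Agent Cfsg.Agent.Fusion Cfsg.Agent.FusionZJ

universe u

variable {p : ℕ} [Fact p.Prime] {W : ∀ (Q : Type u) [Group Q], Subgroup Q}

/-- Normality of the functor value passes along isomorphisms. -/
theorem normal_equiv (hW : IsCharPFunctor.{u} p W) {A B : Type u} [Group A] [Group B] [Finite A]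
    (e : A ≃* B)
    (h : Subgroup.centralizer ((pCore p A : Subgroup A) : Set A) ≤ pCore p A →
      ∀ T : Sylow p A, (inducedFunctor W (T : Subgroup A)).Normal)
    (hc : Subgroup.centralizer ((pCore p B : Subgroup B) : Set B) ≤ pCore p B) (T : Sylow p B) :
    (FusionZJ.wOf W (T : Subgroup B)).Normal := by
  haveI : Finite B := Finite.of_equiv A e.toEquiv
  let T' : Sylow p A := T.comapOfInjective e.toMonoidHom e.injective (by
    rw [MonoidHom.range_eq_top_of_surjective _ e.surjective]; exact le_top)
  have hT' : (T' : Subgroup A).map e.toMonoidHom = (T : Subgroup B) :=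
    Subgroup.map_comap_eq_self_of_surjective e.surjective _
  have hWT := FusionZJ.wOf_map W hW.2 e.toMonoidHom e.injective (T' : Subgroup A) T'.isPGroup'
  rw [hT'] at hWT
  rw [hWT]
  exact (h (centralizer_pCore_le_equiv e hc) T').map _ e.surjective

/-- A functor normal in the constrained sections controls strong fusion. -/
theorem controlsStrongFusion_of_normal (hW : IsCharPFunctor.{u} p W) (G : Type u) [Group G] [Finite G]
    (h : ∀ (L : Type u) [Group L] [Finite L] (T : Sylow p L),
      Subgroup.centralizer ((pCore p L : Subgroup L) : Set L) ≤ pCore p L → SectionOf G L →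
      (FusionZJ.wOf W (T : Subgroup L)).Normal) (P : Sylow p G) :
    ControlsStrongFusion p (inducedFunctor W (P : Subgroup G)) := by
  refine ⟨P, Subgroup.map_subtype_le _, fun A hA => ⟨hA, fun g hg => ?_⟩⟩
  have hI := groupFusion_inducedBy (P : Subgroup G)
  have hn := functor_isNormal (Good := SectionOf G) hW.1 hW.2 h sectionOf_sub sectionOf_quot
    _ _ G (P : Subgroup G) P.isPGroup' _ (groupFusion_saturated P) rfl rfl (hasGood_group P)
  have hm : Mor (groupFusionSystem (P : Subgroup G)) (Subgroup.closure A) (cj g) := by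
    refine (hI _ _).mpr ⟨(Subgroup.closure_le _).mpr hA, fun x hx => ?_, g, trivial, fun _ _ => rfl⟩
    have h1 : (Subgroup.closure A).map (MulAut.conj g).toMonoidHom ≤ (P : Subgroup G) := by
      rw [MonoidHom.map_closure, Subgroup.closure_le]
      exact hg
    exact h1 ⟨x, hx, rfl⟩
  obtain ⟨f, hf, ef, mf⟩ := ExtStab.of_isNormal hn hm
  obtain ⟨-, -, x, -, hx⟩ := (hI _ _).mp hf
  refine ⟨x, Subgroup.mem_normalizer_fintype fun y hy => ?_, fun a ha => ?_⟩
  · show cj x y ∈ FusionZJ.wOf W (P : Subgroup G)
    rw [← hx y (Subgroup.mem_sup_right hy)]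
    exact mf y hy
  · show cj g a = cj x a
    rw [← ef a (Subgroup.subset_closure ha), hx a (Subgroup.mem_sup_left (Subgroup.subset_closure ha))]

end Cfsg.Agent.PLocal
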