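/-
Coprime operators permuting the direct factors of a group generated by best offenders.
-/
import Cfsg.Agent.PLocal.OffenderDirect

set_option linter.unusedSectionVars false
set_option linter.style.haveILetI false

namespace Cfsg.Agent.PLocal

open Subgroup Cfsg
open scoped commutatorElement

variable {G : Type*} [Group G] [Finite G] {p : ℕ} [hp : Fact p.Prime]

theorem isBestOffenderOn_map_conj {V A : Subgroup G} (h : IsBestOffenderOn p V A) (g : G) :
    IsBestOffenderOn p (V.map (MulAut.conj g).toMonoidHom) (A.map (MulAut.conj g).toMonoidHom) := by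
  set φ := (MulAut.conj g).toMonoidHom with hφ
  have hφi : Function.Injective φ := (MulAut.conj g).injective
  have hcent : ∀ B : Subgroup G, (centralizer (B : Set G)).map φ = centralizer ((B.map φ : Subgroup G) : Set G) := by
    intro B
    ext x
    obtain ⟨y, rfl⟩ : ∃ y, φ y = x := (MulAut.conj g).surjective x
    rw [Subgroup.mem_map_iff_mem hφi, Subgroup.mem_centralizer_iff, Subgroup.mem_centralizer_iff]
    constructor
    · rintro h _ ⟨w, hw, rfl⟩
      rw [← map_mul, ← map_mul, h w hw]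
    · intro h w hw
      apply hφi
      rw [map_mul, map_mul]
      exact h _ ⟨w, hw, rfl⟩
  have hval : ∀ B : Subgroup G, Nat.card (B.map φ) *
      Nat.card (V.map φ ⊓ centralizer ((B.map φ : Subgroup G) : Set G) : Subgroup G) =
      Nat.card B * Nat.card (V ⊓ centralizer (B : Set G) : Subgroup G) := fun B => by
    rw [← hcent, ← Subgroup.map_inf _ _ _ hφi, Subgroup.card_map_of_injective hφi,
      Subgroup.card_map_of_injective hφi]
  obtain ⟨h1, h2, h3⟩ := h
  refine ⟨fun B hB => ?_, ?_, ?_⟩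
  · have e : (B.comap φ).map φ = B := Subgroup.map_comap_eq_self_of_surjective (MulAut.conj g).surjective B
    rw [← e, hval, hval]
    refine h1 _ fun x hx => ?_
    exact (Subgroup.mem_map_iff_mem hφi).mp (hB hx)
  · rw [← map_commutator, ← hcent]
    exact Subgroup.map_mono h2
  · rintro _ ⟨a, ha, rfl⟩
    rw [← map_pow, ← hcent]
    exact ⟨_, h3 a ha, rfl⟩

namespace OffCtx

variable {V H : Subgroup G} (hc : OffCtx p V H)
include hc

theorem oQ_map {g : G} (hg : g ∈ normalizer (H : Set G)) :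
    (oQ p H).map (MulAut.conj g).toMonoidHom = oQ p H := by
  have hH : H.map (MulAut.conj g).toMonoidHom = H := Subgroup.mem_normalizer_iff_map_conj_eq.mp hg
  let e : H ≃* H := ((MulAut.conj g).subgroupMap H).trans (MulEquiv.subgroupCongr hH)
  conv_rhs => rw [oQ, ← Core.pPrimeCore_map_equiv e, Subgroup.map_map]
  rw [oQ, Subgroup.map_map]
  rfl

/-- Elements normalizing `V` and `H` permute the factors. -/
theorem factor_conj (E : Factor p V H) {g : G} (hgV : g ∈ normalizer (V : Set G)) (hgH : g ∈ normalizer (H : Set G)) :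
    ∃ F : Factor p V H, (F : Subgroup G) = (E : Subgroup G).map (MulAut.conj g).toMonoidHom := by
  obtain ⟨E, A, hA, ho, hne, hmin, rfl⟩ := E
  have hVg : V.map (MulAut.conj g).toMonoidHom = V := Subgroup.mem_normalizer_iff_map_conj_eq.mp hgV
  have hAg : A.map (MulAut.conj g).toMonoidHom ≤ H :=
    (Subgroup.map_mono hA).trans (Subgroup.mem_normalizer_iff_map_conj_eq.mp hgH).le
  have ho' := isBestOffenderOn_map_conj ho g
  rw [hVg] at ho'
  have hc' : Nat.card (A.map (MulAut.conj g).toMonoidHom) = p := by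
    rw [Subgroup.card_map_of_injective (MulAut.conj g).injective, hc.minimal_card hA ho hne hmin]
  obtain ⟨h1, h2⟩ := hc.min_of_card hAg hc'
  refine ⟨⟨_, _, hAg, ho', h1, h2, rfl⟩, ?_⟩
  show oQ p H |> fun Q => ⁅Q, A.map (MulAut.conj g).toMonoidHom⁆ ⊔ A.map (MulAut.conj g).toMonoidHom = _
  rw [Subgroup.map_sup, map_commutator, show (pPrimeCore p H).map H.subtype = oQ p H from rfl, hc.oQ_map hgH]

/-- Elements of `H` agreeing on all planes are equal. -/
theorem eq_one_of_planes (hS3 : H = ⨆ A : {A : Subgroup G // A ≤ H ∧ IsBestOffenderOn p V A}, (A : Subgroup G))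
    {h : G} (hh : h ∈ H) (hfix : ∀ F : Factor p V H, h ∈ centralizer ((⁅V, (F : Subgroup G)⁆ : Subgroup G) : Set G)) :
    h = 1 := by
  refine hc.act.eq_one hh fun v hv => ?_
  have hle : (V ⊓ centralizer (H : Set G)) ⊔ (⨆ E : Factor p V H, ⁅V, (E : Subgroup G)⁆) ≤
      centralizer ({h} : Set G) := by
    refine sup_le (fun w hw => ?_) (iSup_le fun F u hu => ?_) <;> rw [Subgroup.mem_centralizer_singleton_iff]
    · exact (Subgroup.mem_centralizer_iff.mp hw.2 h hh).symm
    · exact Subgroup.mem_centralizer_iff.mp (hfix F) u hu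
  exact (Subgroup.mem_centralizer_singleton_iff.mp (hle ((hc.planes_iSup hS3).ge hv))).symm

theorem factor_le (E : Factor p V H) : (E : Subgroup G) ≤ H := by
  obtain ⟨A, hA, -, eA⟩ := hc.factor_spec E
  rw [eA]; exact hc.eOff_le_H hA

theorem factor_le_centralizer {E F : Factor p V H} (h : E ≠ F) :
    (E : Subgroup G) ≤ centralizer ((⁅V, (F : Subgroup G)⁆ : Subgroup G) : Set G) :=
  le_centralizer_iff.mp ((hc.factor_orth h).trans inf_le_right)

theorem factor_card_dvd (E : Factor p V H) : 6 ∣ Nat.card (E : Subgroup G) := by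
  obtain ⟨A, hA, hTA, eA⟩ := hc.factor_spec E
  obtain ⟨e⟩ := (hc.eOff_decomp hA hTA).2.2.2
  haveI : NeZero p := ⟨hp.out.ne_zero⟩
  rw [eA, Nat.card_congr e.toEquiv, Linear.card_SL_two, ZMod.card]
  rcases hc.prime_eq hA hTA with h | h <;> subst h <;> norm_num

/-- A subgroup of order prime to `6` normalizing a factor centralizes it. -/
theorem centralizes_of_norm (E : Factor p V H) {X : Subgroup G} (hXV : X ≤ normalizer (V : Set G))
    (hX : X ≤ normalizer ((E : Subgroup G) : Set G)) (h6 : (Nat.card X).Coprime 6) :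
    X ≤ centralizer ((E : Subgroup G) : Set G) ∧
      X ≤ centralizer ((⁅V, (E : Subgroup G)⁆ : Subgroup G) : Set G) := by
  obtain ⟨A, hA, hTA, eA⟩ := hc.factor_spec E
  rw [eA] at hX ⊢
  set U := ⁅V, eOff p H A⁆ with hU
  have hXU : X ≤ normalizer (U : Set G) := fun g hg => hc.norm_commutator (hXV hg) (hX hg)
  have hfix : X ≤ centralizer (U : Set G) := by
    have hD : ∀ x : G, x ∈ X → ∀ r : ℕ, r.Prime → ∀ k, orderOf x = r ^ k → x ∈ centralizer (U : Set G) := by
      intro x hx r hr k hk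
      rcases Nat.eq_zero_or_pos k with rfl | hk0
      · rw [pow_zero, orderOf_eq_one_iff] at hk; rw [hk]; exact one_mem _
      haveI := Fact.mk hr
      have hr6 : r.Coprime 6 := h6.coprime_dvd_left
        ((dvd_pow_self r hk0.ne').trans (hk ▸ Subgroup.orderOf_dvd_natCard _ hx))
      have hP : IsPGroup r (zpowers x) := IsPGroup.of_card (n := k) (by rw [Nat.card_zpowers, hk])
      have hxN : zpowers x ≤ normalizer (U : Set G) := zpowers_le.mpr (hXU hx)
      letI : MulAction (zpowers x) U :=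
        { smul := fun g u => ⟨(g : G) * u * (g : G)⁻¹, (mem_normalizer_iff.mp (hxN g.2) _).mp u.2⟩
          one_smul := fun u => Subtype.ext (by show ((1 : zpowers x) : G) * u * ((1 : zpowers x) : G)⁻¹ = u; simp)
          mul_smul := fun g h u => Subtype.ext (by
            show ((g * h : zpowers x) : G) * u * ((g * h : zpowers x) : G)⁻¹ = (g : G) * ((h : G) * u * (h : G)⁻¹) * (g : G)⁻¹
            rw [Subgroup.coe_mul]; group) }
      have hmod := hP.card_modEq_card_fixedPoints (α := U)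
      set C := U ⊓ centralizer (zpowers x : Set G) with hC
      have hfp : Nat.card (MulAction.fixedPoints (zpowers x) U) = Nat.card C := by
        refine Nat.card_congr
          { toFun := fun u => ⟨(u.1 : G), u.1.2, Subgroup.mem_centralizer_iff.mpr fun g hg => ?_⟩
            invFun := fun u => ⟨⟨u.1, u.2.1⟩, fun g => Subtype.ext ?_⟩
            left_inv := fun u => rfl
            right_inv := fun u => rfl }
        · exact mul_inv_eq_iff_eq_mul.mp (congrArg Subtype.val (u.2 ⟨g, hg⟩))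
        · show (g : G) * u.1 * (g : G)⁻¹ = u.1
          rw [Subgroup.mem_centralizer_iff.mp u.2.2 g g.2, mul_inv_cancel_right]
      rw [hfp, (hc.eOff_decomp hA hTA).1] at hmod
      rcases hc.plane_cases hA hTA (inf_le_left : C ≤ U) with h | h | h
      · exfalso
        rw [show C = ⊥ from h, Subgroup.card_bot] at hmod
        have h1 : r ∣ p ^ 2 - 1 := (Nat.modEq_iff_dvd' (Nat.one_le_pow _ _ hp.out.pos)).mp hmod.symm
        rcases hc.prime_eq hA hTA with e | e <;> subst e <;> norm_num at h1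
        · have := (Nat.prime_dvd_prime_iff_eq hr Nat.prime_three).mp h1
          subst this; norm_num at hr6
        · have := (Nat.prime_dvd_prime_iff_eq hr Nat.prime_two).mp (hr.dvd_of_dvd_pow (show r ∣ 2 ^ 3 by simpa using h1))
          subst this; norm_num at hr6
      · exfalso
        change Nat.card C = p at h
        rw [h] at hmod
        have h1 : r ∣ p ^ 2 - p := (Nat.modEq_iff_dvd' (Nat.le_self_pow two_ne_zero p)).mp hmod.symm
        rcases hc.prime_eq hA hTA with e | e <;> subst e <;> norm_num at h1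
        · have := (Nat.prime_dvd_prime_iff_eq hr Nat.prime_two).mp h1
          subst this; norm_num at hr6
        · rcases (Nat.Prime.dvd_mul hr).mp (show r ∣ 2 * 3 by simpa using h1) with h2 | h2
          · have := (Nat.prime_dvd_prime_iff_eq hr Nat.prime_two).mp h2
            subst this; norm_num at hr6
          · have := (Nat.prime_dvd_prime_iff_eq hr Nat.prime_three).mp h2
            subst this; norm_num at hr6
      · exact le_centralizer_iff.mp (h.ge.trans inf_le_right) (mem_zpowers x)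
    -- the prime power elements generate
    intro x hx
    have : ∀ n : ℕ, ∀ y ∈ X, orderOf y = n → y ∈ centralizer (U : Set G) := by
      intro n
      induction n using Nat.recOnPrimeCoprime with
      | zero => intro y _ hy; exact absurd hy (orderOf_pos y).ne'
      | prime_pow r k hr => exact fun y hy hk => hD y hy r hr k hk
      | coprime a b ha hb hab iha ihb =>
        intro y hy hyn
        obtain ⟨i, j, hij⟩ : ∃ i j : ℤ, (a : ℤ) * i + b * j = 1 :=
          ⟨a.gcdA b, a.gcdB b, by rw [← Nat.gcd_eq_gcd_ab, hab.gcd_eq_one]; norm_num⟩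
        have h1 : orderOf (y ^ a) = b := by
          rw [orderOf_pow' y (by omega), hyn, Nat.gcd_eq_right (Dvd.intro b rfl), Nat.mul_div_cancel_left b (by omega)]
        have h2 : orderOf (y ^ b) = a := by
          rw [orderOf_pow' y (by omega), hyn, Nat.gcd_eq_right (Dvd.intro_left a rfl), Nat.mul_div_cancel a (by omega)]
        rw [show y = (y ^ a) ^ i * (y ^ b) ^ j by
          rw [← zpow_natCast, ← zpow_natCast, ← zpow_mul, ← zpow_mul, ← zpow_add, hij, zpow_one]]
        exact mul_mem (zpow_mem (ihb _ (pow_mem hy a) h1) i) (zpow_mem (iha _ (pow_mem hy b) h2) j)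
    exact this _ x hx rfl
  refine ⟨?_, hfix⟩
  intro x hx
  rw [Subgroup.mem_centralizer_iff]
  intro e he
  have he' : x * e * x⁻¹ ∈ eOff p H A := (mem_normalizer_iff.mp (hX hx) e).mp he
  have h1 := hc.eq_one_of_fix_plane hA hTA (mul_mem he' (inv_mem he)) fun u hu => ?_
  · exact (mul_inv_eq_iff_eq_mul.mp (mul_inv_eq_one.mp h1)).symm
  · have hu' : e⁻¹ * u * e ∈ U := (mem_normalizer_iff''.mp (hc.E_norm_plane hA he) u).mp hu
    have c1 : Commute x u := (Subgroup.mem_centralizer_iff.mp (hfix hx) u hu).symm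
    have c2 : Commute x (e⁻¹ * u * e) := (Subgroup.mem_centralizer_iff.mp (hfix hx) _ hu').symm
    calc x * e * x⁻¹ * e⁻¹ * u = x * e * x⁻¹ * (e⁻¹ * u * e) * e⁻¹ := by group
      _ = x * e * ((e⁻¹ * u * e) * x⁻¹) * e⁻¹ := by rw [← c2.inv_left.eq]; group
      _ = (x * u) * e * x⁻¹ * e⁻¹ := by group
      _ = (u * x) * e * x⁻¹ * e⁻¹ := by rw [c1.eq]
      _ = _ := by group

section symm

variable (hS3 : H = ⨆ A : {A : Subgroup G // A ≤ H ∧ IsBestOffenderOn p V A}, (A : Subgroup G))
  {X : Subgroup G} (hXV : X ≤ normalizer (V : Set G)) (hXH : X ≤ normalizer (H : Set G))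
  (h6 : (Nat.card X).Coprime 6)
include hS3 hXV hXH h6

/-- Transport along the orbit of a factor. -/
noncomputable def transport (X : Subgroup G) (E : Factor p V H) (a : G) (F : Factor p V H) : G :=
  open Classical in
  if h : ∃ u ∈ X, (E : Subgroup G).map (MulAut.conj u).toMonoidHom = (F : Subgroup G) then
    h.choose * a * h.choose⁻¹ else 1

omit hS3 in
theorem commute_stab {E : Factor p V H} {a : G} (ha : a ∈ (E : Subgroup G) ∨ a ∈ ⁅V, (E : Subgroup G)⁆) {v : G}
    (hv : v ∈ X) (hvE : (E : Subgroup G).map (MulAut.conj v).toMonoidHom = (E : Subgroup G)) :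
    v * a * v⁻¹ = a := by
  have hvn : v ∈ X ⊓ normalizer ((E : Subgroup G) : Set G) := ⟨hv, Subgroup.mem_normalizer_iff_map_conj_eq.mpr hvE⟩
  set Y := X ⊓ normalizer ((E : Subgroup G) : Set G) with hY
  obtain ⟨hYE, hYU⟩ : Y ≤ centralizer ((E : Subgroup G) : Set G) ∧
      Y ≤ centralizer ((⁅V, (E : Subgroup G)⁆ : Subgroup G) : Set G) :=
    hc.centralizes_of_norm E (inf_le_left.trans hXV) inf_le_right
      (h6.coprime_dvd_left (Subgroup.card_dvd_of_le inf_le_left))
  rcases ha with ha | ha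
  · rw [← Subgroup.mem_centralizer_iff.mp (hYE hvn) a ha, mul_inv_cancel_right]
  · rw [← Subgroup.mem_centralizer_iff.mp (hYU hvn) a ha, mul_inv_cancel_right]

theorem exists_conj_factor (F : Factor p V H) {v : G} (hv : v ∈ X) :
    ∃ F' : Factor p V H, (F' : Subgroup G) = (F : Subgroup G).map (MulAut.conj v).toMonoidHom :=
  hc.factor_conj F (hXV hv) (hXH hv)

omit hS3 h6 in
theorem plane_conj {F F' : Subgroup G} {v : G} (hv : v ∈ X) (h : F' = F.map (MulAut.conj v).toMonoidHom) :
    ⁅V, F'⁆ = (⁅V, F⁆).map (MulAut.conj v).toMonoidHom := by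
  rw [map_commutator, show V.map (MulAut.conj v).toMonoidHom = V from Subgroup.mem_normalizer_iff_map_conj_eq.mp (hXV hv), h]

theorem transport_mem {E : Factor p V H} {a : G} (F : Factor p V H) :
    (a ∈ (E : Subgroup G) → transport X E a F ∈ (F : Subgroup G)) ∧
      (a ∈ ⁅V, (E : Subgroup G)⁆ → transport X E a F ∈ ⁅V, (F : Subgroup G)⁆) := by
  classical
  rw [transport]
  split
  · rename_i h
    obtain ⟨hu, he⟩ := h.choose_spec
    exact ⟨fun ha => he.le ⟨a, ha, rfl⟩,
      fun ha => (hc.plane_conj hXV hXH hu he.symm).ge ⟨a, ha, rfl⟩⟩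
  · exact ⟨fun _ => one_mem _, fun _ => one_mem _⟩

theorem transport_self {E : Factor p V H} {a : G} (ha : a ∈ (E : Subgroup G) ∨ a ∈ ⁅V, (E : Subgroup G)⁆) :
    transport X E a E = a := by
  classical
  rw [transport]
  split
  · rename_i h
    exact hc.commute_stab hXV hXH h6 ha h.choose_spec.1 h.choose_spec.2
  · rename_i h
    exact absurd ⟨1, one_mem _, by ext; simp⟩ h

theorem transport_conj {E F F' : Factor p V H} {a v : G}
    (ha : a ∈ (E : Subgroup G) ∨ a ∈ ⁅V, (E : Subgroup G)⁆) (hv : v ∈ X)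
    (hF : (F' : Subgroup G) = (F : Subgroup G).map (MulAut.conj v).toMonoidHom) :
    v * transport X E a F * v⁻¹ = transport X E a F' := by
  classical
  have hcomp : ∀ g h : G, ∀ K : Subgroup G, (K.map (MulAut.conj h).toMonoidHom).map (MulAut.conj g).toMonoidHom =
      K.map (MulAut.conj (g * h)).toMonoidHom := fun g h K => by
    rw [Subgroup.map_map]
    congr 1
    ext x
    simp [mul_assoc]
  have hone : ∀ K : Subgroup G, K.map (MulAut.conj (1 : G)).toMonoidHom = K := fun K => by ext x; simp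
  rw [transport, transport]
  by_cases h : ∃ u ∈ X, (E : Subgroup G).map (MulAut.conj u).toMonoidHom = (F : Subgroup G)
  · have h' : ∃ u ∈ X, (E : Subgroup G).map (MulAut.conj u).toMonoidHom = (F' : Subgroup G) :=
      ⟨v * h.choose, mul_mem hv h.choose_spec.1, by rw [← hcomp, h.choose_spec.2, ← hF]⟩
    rw [dif_pos h, dif_pos h']
    obtain ⟨hu, he⟩ := h.choose_spec
    obtain ⟨hu', he'⟩ := h'.choose_spec
    have hs := hc.commute_stab hXV hXH h6 ha (mul_mem (inv_mem hu') (mul_mem hv hu)) (by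
      rw [← hcomp, ← hcomp, he, ← hF]
      exact (congrArg _ he'.symm).trans (by rw [hcomp, inv_mul_cancel, hone]))
    calc v * (h.choose * a * h.choose⁻¹) * v⁻¹
        = h'.choose * ((h'.choose⁻¹ * (v * h.choose)) * a * (h'.choose⁻¹ * (v * h.choose))⁻¹) * h'.choose⁻¹ := by group
      _ = _ := by rw [hs]
  · rw [dif_neg h, dif_neg]
    · group
    · rintro ⟨u, hu, he⟩
      exact h ⟨v⁻¹ * u, mul_mem (inv_mem hv) hu, by rw [← hcomp, he, hF, hcomp, inv_mul_cancel, hone]⟩

/-- An element of `H` centralized by `X` inducing a given element of a factor on it. -/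
theorem exists_glue (E : Factor p V H) {a : G} (ha : a ∈ (E : Subgroup G)) :
    ∃ c ∈ H, c ∈ centralizer (X : Set G) ∧ a⁻¹ * c ∈ centralizer ((⁅V, (E : Subgroup G)⁆ : Subgroup G) : Set G) := by
  classical
  haveI : Fintype (Factor p V H) := Fintype.ofFinite _
  have key : ∀ s : Finset (Factor p V H), ∃ c ∈ H,
      (∀ F ∈ s, (transport X E a F)⁻¹ * c ∈ centralizer ((⁅V, (F : Subgroup G)⁆ : Subgroup G) : Set G)) ∧
      ∀ F ∉ s, c ∈ centralizer ((⁅V, (F : Subgroup G)⁆ : Subgroup G) : Set G) := by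
    intro s
    induction s using Finset.induction_on with
    | empty => exact ⟨1, one_mem _, fun F hF => absurd hF (Finset.notMem_empty F), fun F _ => one_mem _⟩
    | @insert F₀ s hF₀ ih =>
      obtain ⟨c, hcH, hcs, hcn⟩ := ih
      have hmem := (hc.transport_mem hS3 hXV hXH h6 (E := E) (a := a) F₀).1 ha
      refine ⟨c * transport X E a F₀, mul_mem hcH (hc.factor_le F₀ hmem), fun F hF => ?_, fun F hF => ?_⟩
      · rcases Finset.mem_insert.mp hF with rfl | hF'
        · obtain ⟨B, hB, hTB, eB⟩ := hc.factor_spec F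
          have hcom : Commute (transport X E a F) c := commutatorElement_eq_one_iff_mul_comm.mp
            (Subgroup.mem_bot.mp (hc.eOff_comm_centralizer hS3 hB hTB ▸ commutator_mem_commutator (eB ▸ hmem)
              (Subgroup.mem_inf.mpr ⟨hcH, eB ▸ hcn F hF₀⟩)))
          rw [← hcom.eq, inv_mul_cancel_left]
          exact hcn F hF₀
        · rw [← mul_assoc]
          exact mul_mem (hcs F hF') (hc.factor_le_centralizer (fun e => hF₀ (by rw [e]; exact hF')) hmem)
      · rw [Finset.mem_insert, not_or] at hF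
        exact mul_mem (hcn F hF.2) (hc.factor_le_centralizer (Ne.symm hF.1) hmem)
  obtain ⟨c, hcH, hcs, -⟩ := key Finset.univ
  refine ⟨c, hcH, Subgroup.mem_centralizer_iff.mpr fun v hv => ?_, ?_⟩
  · have hc'H : v * c * v⁻¹ ∈ H := (mem_normalizer_iff.mp (hXH hv) c).mp hcH
    refine mul_inv_eq_iff_eq_mul.mp (inv_mul_eq_one.mp (hc.eq_one_of_planes hS3 (mul_mem (inv_mem hc'H) hcH) fun F => ?_))
    obtain ⟨F₀, hF₀⟩ := hc.exists_conj_factor hS3 hXV hXH h6 F (inv_mem hv)
    have hF : (F : Subgroup G) = (F₀ : Subgroup G).map (MulAut.conj v).toMonoidHom := by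
      rw [hF₀, Subgroup.map_map]
      ext x
      simp [mul_assoc]
    have h1 : v * ((transport X E a F₀)⁻¹ * c) * v⁻¹ ∈ centralizer ((⁅V, (F : Subgroup G)⁆ : Subgroup G) : Set G) := by
      rw [Subgroup.mem_centralizer_iff, hc.plane_conj hXV hXH hv hF]
      rintro _ ⟨u, hu, rfl⟩
      show v * u * v⁻¹ * _ = _ * (v * u * v⁻¹)
      have := Subgroup.mem_centralizer_iff.mp (hcs F₀ (Finset.mem_univ _)) u hu
      calc v * u * v⁻¹ * (v * ((transport X E a F₀)⁻¹ * c) * v⁻¹) = v * (u * ((transport X E a F₀)⁻¹ * c)) * v⁻¹ := by group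
        _ = _ := by rw [this]; group
    rw [show v * ((transport X E a F₀)⁻¹ * c) * v⁻¹ = (v * transport X E a F₀ * v⁻¹)⁻¹ * (v * c * v⁻¹) by group,
      hc.transport_conj hS3 hXV hXH h6 (Or.inl ha) hv hF] at h1
    rw [show (v * c * v⁻¹)⁻¹ * c = ((transport X E a F)⁻¹ * (v * c * v⁻¹))⁻¹ * ((transport X E a F)⁻¹ * c) by group]
    exact mul_mem (inv_mem h1) (hcs F (Finset.mem_univ _))
  · have h := hcs E (Finset.mem_univ _)
    rwa [hc.transport_self hS3 hXV hXH h6 (Or.inl ha)] at h

/-- The fixed points of `X` in the span of the planes supported on the orbit of `E`. -/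
noncomputable def orbitPlane (X : Subgroup G) (E : Factor p V H) : Subgroup G :=
  ((⨆ F : Factor p V H, ⁅V, (F : Subgroup G)⁆) ⊓ centralizer (X : Set G)) ⊓
    ⨅ F : {F : Factor p V H // ¬ ∃ u ∈ X, (E : Subgroup G).map (MulAut.conj u).toMonoidHom = (F : Subgroup G)},
      V ⊓ centralizer (((F : Factor p V H) : Subgroup G) : Set G)

theorem orbitPlane_le_V (E : Factor p V H) : orbitPlane X E ≤ V :=
  (inf_le_left.trans inf_le_left).trans (iSup_le hc.plane_le_V)

theorem H_normalizes_plane (F : Factor p V H) : H ≤ normalizer ((⁅V, (F : Subgroup G)⁆ : Subgroup G) : Set G) := by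
  obtain ⟨B, hB, hTB, eB⟩ := hc.factor_spec F
  rw [eB]
  exact fun h hh => hc.norm_commutator (hc.act.norm hh) (hc.H_normalizes hS3 hB hTB hh)

theorem H_normalizes_fix (F : Factor p V H) {h w : G} (hh : h ∈ H)
    (hw : w ∈ V ⊓ centralizer ((F : Subgroup G) : Set G)) :
    h * w * h⁻¹ ∈ V ⊓ centralizer ((F : Subgroup G) : Set G) := by
  obtain ⟨B, hB, hTB, eB⟩ := hc.factor_spec F
  refine ⟨hc.act.conjV hh hw.1, ?_⟩
  show _ ∈ centralizer _
  rw [Subgroup.mem_centralizer_iff]
  intro e he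
  have hn : h ∈ normalizer ((F : Subgroup G) : Set G) := eB ▸ hc.H_normalizes hS3 hB hTB hh
  have h1 := Subgroup.mem_centralizer_iff.mp hw.2 (h⁻¹ * e * h) ((mem_normalizer_iff''.mp hn e).mp he)
  calc e * (h * w * h⁻¹) = h * ((h⁻¹ * e * h) * w) * h⁻¹ := by group
    _ = _ := by rw [h1]; group

/-- A fixed point of `X` with a given component in the plane of `E`. -/
theorem exists_orbit_point (E : Factor p V H) {u : G} (hu : u ∈ ⁅V, (E : Subgroup G)⁆) :
    ∃ w ∈ orbitPlane X E, u⁻¹ * w ∈ V ⊓ centralizer ((E : Subgroup G) : Set G) := by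
  classical
  haveI : Fintype (Factor p V H) := Fintype.ofFinite _
  have key : ∀ s : Finset (Factor p V H), ∃ w ∈ ⨆ F : Factor p V H, ⁅V, (F : Subgroup G)⁆,
      (∀ F ∈ s, (transport X E u F)⁻¹ * w ∈ V ⊓ centralizer ((F : Subgroup G) : Set G)) ∧
      ∀ F ∉ s, w ∈ V ⊓ centralizer ((F : Subgroup G) : Set G) := by
    intro s
    induction s using Finset.induction_on with
    | empty => exact ⟨1, one_mem _, fun F hF => absurd hF (Finset.notMem_empty F), fun F _ => one_mem _⟩
    | @insert F₀ s hF₀ ih =>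
      obtain ⟨w, hw, hws, hwn⟩ := ih
      have hmem := (hc.transport_mem hS3 hXV hXH h6 (E := E) (a := u) F₀).2 hu
      refine ⟨w * transport X E u F₀, mul_mem hw (Subgroup.mem_iSup_of_mem F₀ hmem), fun F hF => ?_, fun F hF => ?_⟩
      · rcases Finset.mem_insert.mp hF with rfl | hF'
        · rw [hc.act.commV ((iSup_le hc.plane_le_V) hw) (hc.plane_le_V F hmem), inv_mul_cancel_left]
          exact hwn F hF₀
        · rw [← mul_assoc]
          exact mul_mem (hws F hF') (hc.factor_orth (fun e => hF₀ (by rw [← e]; exact hF')) hmem)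
      · rw [Finset.mem_insert, not_or] at hF
        exact mul_mem (hwn F hF.2) (hc.factor_orth hF.1 hmem)
  obtain ⟨w, hw, hws, -⟩ := key Finset.univ
  have hwV : w ∈ V := (iSup_le hc.plane_le_V) hw
  refine ⟨w, ⟨⟨hw, ?_⟩, ?_⟩, ?_⟩
  · show w ∈ centralizer (X : Set G)
    rw [Subgroup.mem_centralizer_iff]
    intro v hv
    refine mul_inv_eq_iff_eq_mul.mp (inv_mul_eq_one.mp (Subgroup.mem_bot.mp
      ((hc.inf_iSup_planes Finset.univ).le (Subgroup.mem_inf.mpr ⟨?_, ?_⟩))))
    · refine ⟨(show (v * w * v⁻¹)⁻¹ * w ∈ V from mul_mem (inv_mem ((mem_normalizer_iff.mp (hXV hv) w).mp hwV)) hwV), ?_⟩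
      show _ ∈ centralizer (H : Set G)
      have hle : H ≤ centralizer ({(v * w * v⁻¹)⁻¹ * w} : Set G) := by
        refine (hc.factor_iSup hS3).ge.trans (iSup_le fun F => ?_)
        obtain ⟨F₀, hF₀⟩ := hc.exists_conj_factor hS3 hXV hXH h6 F (inv_mem hv)
        have hF : (F : Subgroup G) = (F₀ : Subgroup G).map (MulAut.conj v).toMonoidHom := by
          rw [hF₀, Subgroup.map_map]
          ext x
          simp [mul_assoc]
        have h1 : v * ((transport X E u F₀)⁻¹ * w) * v⁻¹ ∈ centralizer ((F : Subgroup G) : Set G) := by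
          rw [Subgroup.mem_centralizer_iff, hF]
          rintro _ ⟨e, he, rfl⟩
          show v * e * v⁻¹ * _ = _ * (v * e * v⁻¹)
          have := Subgroup.mem_centralizer_iff.mp (hws F₀ (Finset.mem_univ _)).2 e he
          calc v * e * v⁻¹ * (v * ((transport X E u F₀)⁻¹ * w) * v⁻¹) = v * (e * ((transport X E u F₀)⁻¹ * w)) * v⁻¹ := by group
            _ = _ := by rw [this]; group
        rw [show v * ((transport X E u F₀)⁻¹ * w) * v⁻¹ = (v * transport X E u F₀ * v⁻¹)⁻¹ * (v * w * v⁻¹) by group,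
          hc.transport_conj hS3 hXV hXH h6 (Or.inr hu) hv hF] at h1
        intro e he
        rw [Subgroup.mem_centralizer_singleton_iff]
        have h2 := mul_mem (inv_mem h1)
          (show (transport X E u F)⁻¹ * w ∈ centralizer ((F : Subgroup G) : Set G) from (hws F (Finset.mem_univ _)).2)
        rw [show ((transport X E u F)⁻¹ * (v * w * v⁻¹))⁻¹ * ((transport X E u F)⁻¹ * w) = (v * w * v⁻¹)⁻¹ * w by group] at h2
        exact Subgroup.mem_centralizer_iff.mp h2 e he
      exact Subgroup.mem_centralizer_iff.mpr fun g hg => Subgroup.mem_centralizer_singleton_iff.mp (hle hg)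
    · have hmapU : ∀ g ∈ ⨆ F : Factor p V H, ⁅V, (F : Subgroup G)⁆, v * g * v⁻¹ ∈ ⨆ F : Factor p V H, ⁅V, (F : Subgroup G)⁆ := by
        intro g hg
        have hle : (⨆ F : Factor p V H, ⁅V, (F : Subgroup G)⁆).map (MulAut.conj v).toMonoidHom ≤
            ⨆ F : Factor p V H, ⁅V, (F : Subgroup G)⁆ := by
          rw [Subgroup.map_iSup]
          refine iSup_le fun F => ?_
          obtain ⟨F', hF'⟩ := hc.exists_conj_factor hS3 hXV hXH h6 F hv
          rw [← hc.plane_conj hXV hXH hv hF']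
          exact le_iSup (fun F : Factor p V H => ⁅V, (F : Subgroup G)⁆) F'
        exact hle ⟨g, hg, rfl⟩
      exact (le_of_eq (by simp) : (⨆ F : Factor p V H, ⁅V, (F : Subgroup G)⁆) ≤
        ⨆ F ∈ (Finset.univ : Finset (Factor p V H)), ⁅V, (F : Subgroup G)⁆) (mul_mem (inv_mem (hmapU w hw)) hw)
  · show w ∈ (⨅ _, _ : Subgroup G)
    rw [Subgroup.mem_iInf]
    rintro ⟨F, hF⟩
    have h := hws F (Finset.mem_univ _)
    rwa [transport, dif_neg hF, inv_one, one_mul] at h
  · have h := hws E (Finset.mem_univ _)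
    rwa [hc.transport_self hS3 hXV hXH h6 (Or.inr hu)] at h

/-- The component in the plane of `E` determines a fixed point. -/
theorem orbitPlane_inj (E : Factor p V H) {w : G} (hw : w ∈ orbitPlane X E)
    (h : w ∈ V ⊓ centralizer ((E : Subgroup G) : Set G)) : w = 1 := by
  classical
  haveI : Fintype (Factor p V H) := Fintype.ofFinite _
  obtain ⟨⟨hwP, hwX⟩, hwO⟩ := hw
  have hall : ∀ F : Factor p V H, w ∈ centralizer ((F : Subgroup G) : Set G) := by
    intro F
    by_cases hF : ∃ v ∈ X, (E : Subgroup G).map (MulAut.conj v).toMonoidHom = (F : Subgroup G)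
    · obtain ⟨v, hv, he⟩ := hF
      rw [← he, Subgroup.mem_centralizer_iff]
      rintro _ ⟨e, hee, rfl⟩
      show v * e * v⁻¹ * w = w * (v * e * v⁻¹)
      have c1 : Commute v w := Subgroup.mem_centralizer_iff.mp hwX v hv
      have c2 : Commute e w := Subgroup.mem_centralizer_iff.mp h.2 e hee
      exact (c1.mul_left c2).mul_left c1.inv_left
    · exact ((Subgroup.mem_iInf.mp hwO) ⟨F, hF⟩).2
  have hwH : w ∈ centralizer (H : Set G) := by
    have hle : H ≤ centralizer ({w} : Set G) := by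
      refine (hc.factor_iSup hS3).ge.trans (iSup_le fun F g hg => ?_)
      rw [Subgroup.mem_centralizer_singleton_iff]
      exact Subgroup.mem_centralizer_iff.mp (hall F) g hg
    exact Subgroup.mem_centralizer_iff.mpr fun g hg => Subgroup.mem_centralizer_singleton_iff.mp (hle hg)
  refine Subgroup.mem_bot.mp (hc.inf_iSup_planes Finset.univ ▸ ⟨⟨h.1, hwH⟩, ?_⟩)
  exact (le_of_eq (by simp) : (⨆ F : Factor p V H, ⁅V, (F : Subgroup G)⁆) ≤
    ⨆ F ∈ (Finset.univ : Finset (Factor p V H)), ⁅V, (F : Subgroup G)⁆) hwP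

theorem card_orbitPlane (E : Factor p V H) : Nat.card (orbitPlane X E) = p ^ 2 := by
  obtain ⟨A, hA, hTA, eA⟩ := hc.factor_spec E
  rw [← (hc.eOff_decomp hA hTA).1, ← eA]
  have hV : V ≤ ⁅V, (E : Subgroup G)⁆ ⊔ (V ⊓ centralizer ((E : Subgroup G) : Set G)) := by
    rw [eA]; exact (hc.eOff_decomp hA hTA).2.2.1
  have hex : ∀ w : orbitPlane X E, ∃ u : (⁅V, (E : Subgroup G)⁆ : Subgroup G),
      (u : G)⁻¹ * w ∈ V ⊓ centralizer ((E : Subgroup G) : Set G) := by
    intro w
    obtain ⟨u, hu, r, hr, e⟩ := Coprime.exists_mul_of_mem_sup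
      (N := ⁅V, (E : Subgroup G)⁆) (A := V ⊓ centralizer ((E : Subgroup G) : Set G))
      (hc.normV (hc.plane_le_V E) inf_le_left) (hV (hc.orbitPlane_le_V hS3 hXV hXH h6 E w.2))
    exact ⟨⟨u, hu⟩, by show u⁻¹ * (w : G) ∈ _; rw [← e, inv_mul_cancel_left]; exact hr⟩
  choose f hf using hex
  refine Nat.card_congr (Equiv.ofBijective f ⟨fun w w' e => ?_, fun u => ?_⟩)
  · refine Subtype.ext (inv_mul_eq_one.mp (hc.orbitPlane_inj hS3 hXV hXH h6 E (mul_mem (inv_mem w.2) w'.2) ?_))
    have h := mul_mem (inv_mem (hf w)) (hf w')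
    rwa [e, mul_inv_rev, inv_inv, mul_assoc, mul_inv_cancel_left] at h
  · obtain ⟨w, hw, hwu⟩ := hc.exists_orbit_point hS3 hXV hXH h6 E u.2
    refine ⟨⟨w, hw⟩, Subtype.ext ?_⟩
    have h1 : (f ⟨w, hw⟩ : G)⁻¹ * u ∈ V ⊓ centralizer ((E : Subgroup G) : Set G) := by
      have h := mul_mem (hf ⟨w, hw⟩) (inv_mem hwu)
      rwa [mul_inv_rev, inv_inv, mul_assoc, mul_inv_cancel_left] at h
    have h2 := Subgroup.mem_bot.mp ((hc.plane_inf E).le (Subgroup.mem_inf.mpr ⟨mul_mem (inv_mem (f ⟨w, hw⟩).2) u.2, h1⟩))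
    exact inv_mul_eq_one.mp h2

theorem orbitPlane_invariant (E : Factor p V H) {d : G} (hdH : d ∈ H) (hdX : d ∈ centralizer (X : Set G)) :
    d ∈ normalizer (orbitPlane X E : Set G) := by
  refine mem_normalizer_fintype fun w hw => ?_
  obtain ⟨⟨hwP, hwX⟩, hwO⟩ := hw
  refine ⟨⟨?_, ?_⟩, ?_⟩
  · show d * w * d⁻¹ ∈ ⨆ F : Factor p V H, ⁅V, (F : Subgroup G)⁆
    have hle : (⨆ F : Factor p V H, ⁅V, (F : Subgroup G)⁆).map (MulAut.conj d).toMonoidHom ≤
        ⨆ F : Factor p V H, ⁅V, (F : Subgroup G)⁆ := by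
      rw [Subgroup.map_iSup]
      refine iSup_mono fun F => ?_
      exact (Subgroup.mem_normalizer_iff_map_conj_eq.mp (hc.H_normalizes_plane hS3 hXV hXH h6 F hdH) :
        (⁅V, (F : Subgroup G)⁆).map (MulAut.conj d).toMonoidHom = _).le
    exact hle ⟨w, hwP, rfl⟩
  · exact (show d * w * d⁻¹ ∈ centralizer (X : Set G) from mul_mem (mul_mem hdX hwX) (inv_mem hdX))
  · show d * w * d⁻¹ ∈ (⨅ _, _ : Subgroup G)
    rw [Subgroup.mem_iInf]
    rintro ⟨F, hF⟩
    exact hc.H_normalizes_fix hS3 hXV hXH h6 F hdH ((Subgroup.mem_iInf.mp hwO) ⟨F, hF⟩)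

/-- Centralizing the fixed plane or the plane of `E` is the same for fixed elements of `H`. -/
theorem fix_orbitPlane_iff (E : Factor p V H) {d : G} (hdH : d ∈ H) (hdX : d ∈ centralizer (X : Set G)) :
    d ∈ centralizer (orbitPlane X E : Set G) ↔
      d ∈ centralizer ((⁅V, (E : Subgroup G)⁆ : Subgroup G) : Set G) := by
  constructor
  · intro hd
    rw [Subgroup.mem_centralizer_iff]
    intro u hu
    obtain ⟨w, hw, hwu⟩ := hc.exists_orbit_point hS3 hXV hXH h6 E hu
    have hdw := Subgroup.mem_centralizer_iff.mp hd w hw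
    -- compare the components
    have h1 : d * u * d⁻¹ * u⁻¹ ∈ ⁅V, (E : Subgroup G)⁆ :=
      mul_mem ((mem_normalizer_iff.mp (hc.H_normalizes_plane hS3 hXV hXH h6 E hdH) u).mp hu) (inv_mem hu)
    have h2 : d * u * d⁻¹ * u⁻¹ ∈ V ⊓ centralizer ((E : Subgroup G) : Set G) := by
      have e1 : d * u * d⁻¹ * u⁻¹ = (d * (u⁻¹ * w) * d⁻¹)⁻¹ * (u⁻¹ * w) := by
        have huV := hc.plane_le_V E hu
        have hwV := hc.orbitPlane_le_V hS3 hXV hXH h6 E hw
        have hduV := hc.act.conjV hdH huV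
        have hd2 : d * w * d⁻¹ = w := by rw [← hdw, mul_inv_cancel_right]
        calc d * u * d⁻¹ * u⁻¹ = w⁻¹ * (w * (d * u * d⁻¹ * u⁻¹)) := by group
          _ = w⁻¹ * ((d * u * d⁻¹ * u⁻¹) * w) := by rw [hc.act.commV hwV (mul_mem hduV (inv_mem huV))]
          _ = (d * w * d⁻¹)⁻¹ * (d * u * d⁻¹) * (u⁻¹ * w) := by rw [hd2]; group
          _ = _ := by group
      rw [e1]
      exact mul_mem (inv_mem (hc.H_normalizes_fix hS3 hXV hXH h6 E hdH hwu)) hwu
    have h3 : d * u * d⁻¹ * u⁻¹ = 1 := Subgroup.mem_bot.mp (hc.plane_inf E ▸ ⟨h1, h2⟩)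
    exact (mul_inv_eq_iff_eq_mul.mp (mul_inv_eq_one.mp h3)).symm
  · intro hd
    rw [Subgroup.mem_centralizer_iff]
    intro w hw
    obtain ⟨B, hB, hTB, eB⟩ := hc.factor_spec E
    have hV : V ≤ ⁅V, (E : Subgroup G)⁆ ⊔ (V ⊓ centralizer ((E : Subgroup G) : Set G)) := by
      rw [eB]; exact (hc.eOff_decomp hB hTB).2.2.1
    obtain ⟨u, hu, r, hr, e⟩ := Coprime.exists_mul_of_mem_sup
      (N := ⁅V, (E : Subgroup G)⁆) (A := V ⊓ centralizer ((E : Subgroup G) : Set G))
      (hc.normV (hc.plane_le_V E) inf_le_left) (hV (hc.orbitPlane_le_V hS3 hXV hXH h6 E hw))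
    have hdu : d * u * d⁻¹ = u := by
      rw [← Subgroup.mem_centralizer_iff.mp hd u hu, mul_inv_cancel_right]
    have hdw' : d * w * d⁻¹ ∈ orbitPlane X E :=
      (mem_normalizer_iff.mp (hc.orbitPlane_invariant hS3 hXV hXH h6 E hdH hdX) w).mp hw
    have h1 := hc.orbitPlane_inj hS3 hXV hXH h6 E (mul_mem (inv_mem hw) hdw') (by
      rw [← e, show (u * r)⁻¹ * (d * (u * r) * d⁻¹) = r⁻¹ * u⁻¹ * ((d * u * d⁻¹) * (d * r * d⁻¹)) by group, hdu,
        show r⁻¹ * u⁻¹ * (u * (d * r * d⁻¹)) = r⁻¹ * (d * r * d⁻¹) by group]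
      exact mul_mem (inv_mem hr) (hc.H_normalizes_fix hS3 hXV hXH h6 E hdH hr))
    exact mul_inv_eq_iff_eq_mul.mp (inv_mul_eq_one.mp h1).symm |>.symm

end symm

end OffCtx

end Cfsg.Agent.PLocal
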