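/-
Two subnormal subgroups acting irreducibly on their commutator modules commute.
-/
import Cfsg.Agent.PLocal.ChainPCore
import Cfsg.Agent.Coprime.Conjugacy
import Cfsg.Agent.Coprime.PxQ

set_option linter.unusedSectionVars false
set_option linter.style.haveILetI false

namespace Cfsg.Agent.PLocal

open Subgroup Cfsg
open scoped commutatorElement

variable {G : Type*} [Group G] [Finite G] {p : ℕ} [hp : Fact p.Prime]

/-- `E₁` is subnormal in `E` and acts irreducibly on `[V, E₁]`. -/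
structure IrrSub (p : ℕ) (V E E₁ : Subgroup G) : Prop where
  le : E₁ ≤ E
  sn : (E₁.subgroupOf E).IsSubnormal
  irr : ∀ U : Subgroup G, U ≤ ⁅V, E₁⁆ → E₁ ≤ normalizer (U : Set G) → U = ⊥ ∨ U = ⁅V, E₁⁆
  card : 2 < Nat.card E₁

/-- The ambient data. -/
structure FaithfulCore (p : ℕ) (V E : Subgroup G) : Prop where
  ea : IsElementaryAbelian p V
  norm : E ≤ normalizer (V : Set G)
  faith : E ⊓ centralizer (V : Set G) = ⊥
  core : pCore p E = ⊥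

/-- Conjugation of subgroups. -/
abbrev cj (g : G) (U : Subgroup G) : Subgroup G := U.map (MulAut.conj g).toMonoidHom

theorem cj_cj (g h : G) (U : Subgroup G) : cj g (cj h U) = cj (g * h) U := by
  rw [cj, cj, cj, Subgroup.map_map]
  congr 1
  ext x
  simp [mul_assoc]

theorem cj_one (U : Subgroup G) : cj 1 U = U := by ext x; simp

theorem card_cj (g : G) (U : Subgroup G) : Nat.card (cj g U) = Nat.card U :=
  Subgroup.card_map_of_injective (MulAut.conj g).injective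

theorem cj_commutator (g : G) (U W : Subgroup G) : cj g ⁅U, W⁆ = ⁅cj g U, cj g W⁆ := map_commutator _ _ _

theorem cj_eq_iff {g : G} {U : Subgroup G} : cj g U = U ↔ g ∈ normalizer (U : Set G) :=
  Subgroup.mem_normalizer_iff_map_conj_eq.symm

namespace FaithfulCore

variable {V E : Subgroup G} (hF : FaithfulCore p V E)
include hF

theorem plane_le {A : Subgroup G} (hA : A ≤ E) : ⁅V, A⁆ ≤ V :=
  Coprime.commutator_le_of_le_normalizer (hA.trans hF.norm)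

theorem commV {x y : G} (hx : x ∈ V) (hy : y ∈ V) : x * y = y * x := comm_of_EA hF.ea hx hy

theorem normV {X Y : Subgroup G} (hX : X ≤ V) (hY : Y ≤ V) : Y ≤ normalizer (X : Set G) := fun _ hy =>
  Subgroup.centralizer_le_normalizer _
    (Subgroup.mem_centralizer_iff.mpr fun _ hx => hF.commV (hX hx) (hY hy))

theorem cj_V {g : G} (hg : g ∈ E) : cj g V = V := cj_eq_iff.mpr (hF.norm hg)

theorem cj_plane {g : G} (hg : g ∈ E) (A : Subgroup G) : cj g ⁅V, A⁆ = ⁅V, cj g A⁆ := by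
  rw [cj_commutator, hF.cj_V hg]

/-- `[V, A, B] = 1` makes subnormal `A` and `B` commute. -/
theorem chain {A B : Subgroup G} (hA : A ≤ E) (hB : B ≤ E) (sA : (A.subgroupOf E).IsSubnormal)
    (sB : (B.subgroupOf E).IsSubnormal) (h : ⁅⁅V, A⁆, B⁆ = ⊥) : ⁅A, B⁆ = ⊥ := by
  have h' := commutator_le_pCore_of_chain V E hF.ea hF.norm hF.faith A B hA hB sA sB h
  rw [hF.core, Subgroup.map_bot] at h'
  exact le_bot_iff.mp h'

theorem eq_one {g : G} (hg : g ∈ E) (hfix : ∀ v ∈ V, g * v = v * g) : g = 1 := by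
  rw [← Subgroup.mem_bot, ← hF.faith]
  exact ⟨hg, Subgroup.mem_centralizer_iff.mpr fun v hv => (hfix v hv).symm⟩

/-- A subnormal subgroup stabilizing a series `1 ≤ S ≤ V` is trivial. -/
theorem eq_bot_of_series {K S : Subgroup G} (hK : K ≤ E) (sK : (K.subgroupOf E).IsSubnormal) (hS : S ≤ V)
    (h1 : ∀ g ∈ K, ∀ v ∈ V, g * v * g⁻¹ * v⁻¹ ∈ S) (h2 : K ≤ centralizer (S : Set G)) : K = ⊥ := by
  have hP : IsPGroup p (K.subgroupOf E) := by
    intro g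
    refine ⟨1, Subtype.ext (Subtype.ext ?_)⟩
    rw [pow_one, SubmonoidClass.coe_pow, SubmonoidClass.coe_pow, OneMemClass.coe_one, OneMemClass.coe_one]
    have hg : ((g : E) : G) ∈ K := g.2
    refine hF.eq_one (pow_mem (g : E).2 p) fun v hv => ?_
    have h := conj_pow_eq (a := ((g : E) : G)) (v := v) (w := ((g : E) : G) * v * ((g : E) : G)⁻¹ * v⁻¹) (by group)
      (Subgroup.mem_centralizer_iff.mp (h2 hg) _ (h1 _ hg v hv)).symm p
    rw [hF.ea.2 _ (hS (h1 _ hg v hv)), one_mul] at h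
    exact mul_inv_eq_iff_eq_mul.mp h
  have := Core.le_pCore_of_isSubnormal sK hP
  rw [hF.core, le_bot_iff, Subgroup.subgroupOf_eq_bot, disjoint_iff] at this
  rw [← this, inf_of_le_left hK]

variable {E₁ E₂ : Subgroup G}

theorem fix_trivial (h₁ : IrrSub p V E E₁) : ⁅V, E₁⁆ ⊓ centralizer (E₁ : Set G) = ⊥ := by
  refine (h₁.irr _ inf_le_left fun e he => mem_normalizer_fintype fun u hu => ?_).resolve_right fun h => ?_
  · rw [Subgroup.mem_centralizer_iff.mp hu.2 e he, mul_inv_cancel_right]; exact hu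
  · have hle : ⁅V, E₁⁆ ≤ centralizer (E₁ : Set G) := h.ge.trans inf_le_right
    have hbot : E₁ = ⊥ := hF.eq_bot_of_series h₁.le h₁.sn (hF.plane_le h₁.le) (fun g hg v hv => by
      rw [show g * v * g⁻¹ * v⁻¹ = ⁅v, g⁆⁻¹ by simp only [commutatorElement_def]; group]
      exact inv_mem (commutator_mem_commutator hv hg)) (le_centralizer_iff.mp hle)
    have := h₁.card
    rw [hbot, Subgroup.card_bot] at this
    omega

theorem inf_eq_bot_of_norm (h₁ : IrrSub p V E E₁) (h12 : ¬ ⁅V, E₁⁆ ≤ ⁅V, E₂⁆)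
    (hn : E₁ ≤ normalizer ((⁅V, E₂⁆ : Subgroup G) : Set G)) : ⁅V, E₁⁆ ⊓ ⁅V, E₂⁆ = ⊥ := by
  refine (h₁.irr _ inf_le_left fun e he => mem_normalizer_fintype fun u hu => ?_).resolve_right fun h =>
    h12 (h.ge.trans inf_le_right)
  exact ⟨(mem_normalizer_iff.mp ((le_sup_right.trans (sup_le_normalizer_commutator V E₁)) he) u).mp hu.1,
    (mem_normalizer_iff.mp (hn he) u).mp hu.2⟩

theorem fixes_of_norm (h₁ : IrrSub p V E E₁) (h₂ : IrrSub p V E E₂) (h12 : ¬ ⁅V, E₁⁆ ≤ ⁅V, E₂⁆)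
    (hn : E₁ ≤ normalizer ((⁅V, E₂⁆ : Subgroup G) : Set G)) : ⁅⁅V, E₂⁆, E₁⁆ = ⊥ := by
  rw [← le_bot_iff, ← hF.inf_eq_bot_of_norm h₁ h12 hn]
  exact le_inf (commutator_mono (hF.plane_le h₂.le) le_rfl) (Coprime.commutator_le_of_le_normalizer hn)

theorem commute_of_norm (h₁ : IrrSub p V E E₁) (h₂ : IrrSub p V E E₂) (h12 : ¬ ⁅V, E₁⁆ ≤ ⁅V, E₂⁆)
    (hn : E₁ ≤ normalizer ((⁅V, E₂⁆ : Subgroup G) : Set G)) : ⁅E₁, E₂⁆ = ⊥ := by
  rw [commutator_comm]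
  exact hF.chain h₂.le h₁.le h₂.sn h₁.sn (hF.fixes_of_norm h₁ h₂ h12 hn)

theorem norm_of_commute (h₁ : IrrSub p V E E₁) (h : ⁅E₁, E₂⁆ = ⊥) (h₂ : E₂ ≤ E) :
    E₂ ≤ normalizer ((⁅V, E₁⁆ : Subgroup G) : Set G) := fun g hg => by
  rw [← cj_eq_iff, hF.cj_plane (h₂ hg)]
  congr 1
  rw [cj_eq_iff]
  exact Subgroup.centralizer_le_normalizer _
    (le_centralizer_iff.mp (Subgroup.commutator_eq_bot_iff_le_centralizer.mp h) hg)

end FaithfulCore

theorem IrrSub.conj {V E E₁ : Subgroup G} (hF : FaithfulCore p V E) (h₁ : IrrSub p V E E₁) {g : G} (hg : g ∈ E) :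
    IrrSub p V E (cj g E₁) := by
  have hle : cj g E₁ ≤ E := by
    rintro _ ⟨x, hx, rfl⟩
    exact mul_mem (mul_mem hg (h₁.le hx)) (inv_mem hg)
  refine ⟨hle, ?_, fun U hU hn => ?_, by rw [card_cj]; exact h₁.card⟩
  · have e : (cj g E₁).subgroupOf E = (E₁.subgroupOf E).map (MulAut.conj (⟨g, hg⟩ : E)).toMonoidHom := by
      ext ⟨x, hx⟩
      constructor
      · rintro ⟨y, hy, e⟩
        exact ⟨⟨y, h₁.le hy⟩, hy, Subtype.ext e⟩
      · rintro ⟨⟨y, hy'⟩, hy, e⟩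
        exact ⟨y, hy, congrArg Subtype.val e⟩
    rw [e]
    exact h₁.sn.map (MulAut.conj (⟨g, hg⟩ : E)).surjective
  · have hmap : cj g⁻¹ U ≤ ⁅V, E₁⁆ := by
      rw [show ⁅V, E₁⁆ = cj g⁻¹ ⁅V, cj g E₁⁆ by
        rw [hF.cj_plane (inv_mem hg), cj_cj, inv_mul_cancel, cj_one]]
      exact Subgroup.map_mono hU
    have hn' : E₁ ≤ normalizer (cj g⁻¹ U : Set G) := fun e he => by
      rw [← cj_eq_iff, cj_cj, show e * g⁻¹ = g⁻¹ * (g * e * g⁻¹) by group, ← cj_cj,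
        cj_eq_iff.mpr (show g * e * g⁻¹ ∈ normalizer (U : Set G) from hn ⟨e, he, rfl⟩)]
    rcases h₁.irr _ hmap hn' with h | h
    · left
      have := congrArg (cj g) h
      rwa [cj_cj, mul_inv_cancel, cj_one, cj, Subgroup.map_bot] at this
    · right
      have := congrArg (cj g) h
      rwa [cj_cj, mul_inv_cancel, cj_one, hF.cj_plane hg] at this

theorem not_le_of_ne {V E E₁ : Subgroup G} (hF : FaithfulCore p V E) {g h : G} (hg : g ∈ E) (hh : h ∈ E)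
    (hne : cj g ⁅V, E₁⁆ ≠ cj h ⁅V, E₁⁆) : ¬ ⁅V, cj g E₁⁆ ≤ ⁅V, cj h E₁⁆ := fun hle => by
  rw [← hF.cj_plane hg, ← hF.cj_plane hh] at hle
  exact hne (Subgroup.eq_of_le_of_card_ge hle (by rw [card_cj, card_cj]))

/-- Irreducible subnormal pairs commute. -/
theorem irr_pair_commute : ∀ (n : ℕ) (V E E₁ E₂ : Subgroup G), Nat.card E = n → FaithfulCore p V E →
    IrrSub p V E E₁ → IrrSub p V E E₂ → ¬ ⁅V, E₁⁆ ≤ ⁅V, E₂⁆ → ¬ ⁅V, E₂⁆ ≤ ⁅V, E₁⁆ → ⁅E₁, E₂⁆ = ⊥ := by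
  intro n
  induction n using Nat.strong_induction_on with
  | _ n ih =>
  intro V E E₁ E₂ hn hF h₁ h₂ h12 h21
  -- conjugates of one of the two commute
  have hconj : ∀ X Y : Subgroup G, IrrSub p V E X → Y ≤ E → ¬ ⁅V, Y⁆ ≤ ⁅V, X⁆ → ∀ g ∈ E, ∀ h ∈ E,
      cj g ⁅V, X⁆ ≠ cj h ⁅V, X⁆ → ⁅cj g X, cj h X⁆ = ⊥ := by
    intro X Y hX hY hXY g hg h hh hne
    have hXtop : X.subgroupOf E ≠ ⊤ := fun e => hXY (commutator_mono le_rfl
      (hY.trans (Subgroup.subgroupOf_eq_top.mp e)))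
    obtain ⟨N, hN, hXN, hNtop⟩ := hX.sn.exists_normal_and_le_and_lt_top_of_ne hXtop
    set N' := N.map E.subtype with hN'
    have hN'E : N' ≤ E := Subgroup.map_subtype_le _
    have hlt : Nat.card N' < n := by
      rw [← hn, hN', Subgroup.card_map_of_injective E.subtype_injective]
      by_contra hge
      exact hNtop.ne (Subgroup.eq_top_of_le_card N (not_lt.mp hge))
    haveI := hN
    have hF' : FaithfulCore p V N' := by
      refine ⟨hF.ea, hN'E.trans hF.norm, le_bot_iff.mp (hF.faith ▸ inf_le_inf_right _ hN'E), ?_⟩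
      exact (Core.pCore_eq_bot_congr (N.equivMapOfInjective _ E.subtype_injective)).mp
        (Core.pCore_eq_bot_of_normal N hF.core)
    have hcjN : ∀ x ∈ E, cj x X ≤ N' := by
      rintro x hx _ ⟨y, hy, rfl⟩
      exact ⟨⟨x, hx⟩ * ⟨y, hX.le hy⟩ * ⟨x, hx⟩⁻¹, hN.conj_mem _ (hXN hy) _, rfl⟩
    have hsub : ∀ x ∈ E, IrrSub p V N' (cj x X) := fun x hx => by
      have hx' := hX.conj hF hx
      refine ⟨hcjN x hx, ?_, hx'.irr, hx'.card⟩
      exact hx'.sn.comap (Subgroup.inclusion hN'E)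
    exact ih _ hlt V N' _ _ rfl hF' (hsub g hg) (hsub h hh) (not_le_of_ne hF hg hh hne)
      (not_le_of_ne hF hh hg hne.symm)
  by_cases hn12 : E₁ ≤ normalizer ((⁅V, E₂⁆ : Subgroup G) : Set G)
  · exact hF.commute_of_norm h₁ h₂ h12 hn12
  by_cases hn21 : E₂ ≤ normalizer ((⁅V, E₁⁆ : Subgroup G) : Set G)
  · rw [commutator_comm]; exact hF.commute_of_norm h₂ h₁ h21 hn21
  exfalso
  set U₁ := ⁅V, E₁⁆ with hU₁
  set U₂ := ⁅V, E₂⁆ with hU₂
  have hU₁V : U₁ ≤ V := hF.plane_le h₁.le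
  have hU₂V : U₂ ≤ V := hF.plane_le h₂.le
  -- consequences for conjugate pairs
  have hpair : ∀ X Y : Subgroup G, IrrSub p V E X → Y ≤ E → ¬ ⁅V, Y⁆ ≤ ⁅V, X⁆ → ∀ g ∈ E, ∀ h ∈ E,
      cj g ⁅V, X⁆ ≠ cj h ⁅V, X⁆ → cj g ⁅V, X⁆ ⊓ cj h ⁅V, X⁆ = ⊥ ∧
        cj g ⁅V, X⁆ ≤ centralizer ((cj h X : Subgroup G) : Set G) := by
    intro X Y hX hY hXY g hg h hh hne
    have hc := hconj X Y hX hY hXY g hg h hh hne
    have hgX := hX.conj hF hg
    have hhX := hX.conj hF hh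
    have hnorm := hF.norm_of_commute hgX hc hhX.le
    have hne' := not_le_of_ne hF hh hg hne.symm
    rw [hF.cj_plane hg, hF.cj_plane hh]
    refine ⟨?_, ?_⟩
    · rw [inf_comm]; exact hF.inf_eq_bot_of_norm hhX hne' hnorm
    · exact Subgroup.commutator_eq_bot_iff_le_centralizer.mp (hF.fixes_of_norm hhX hgX hne' hnorm)
  obtain ⟨g₁, hg₁, hg₁'⟩ := SetLike.not_le_iff_exists.mp hn12
  obtain ⟨g₂, hg₂, hg₂'⟩ := SetLike.not_le_iff_exists.mp hn21
  have hg₁E := h₁.le hg₁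
  have hg₂E := h₂.le hg₂
  have hdisj : U₁ ⊓ U₂ = ⊥ := by
    by_contra hne
    obtain ⟨u, hu, hu1⟩ := (U₁ ⊓ U₂).bot_or_exists_ne_one.resolve_left hne
    obtain ⟨hd, hfix⟩ := hpair E₂ E₁ h₂ h₁.le h12 g₁ hg₁E 1 (one_mem _) (by
      rw [cj_one]; exact fun e => hg₁' (cj_eq_iff.mp e))
    rw [cj_one] at hfix
    set w := g₁ * u * g₁⁻¹ with hw
    have hw₁ : w ∈ U₁ := (mem_normalizer_iff.mp ((le_sup_right.trans (sup_le_normalizer_commutator V E₁)) hg₁) u).mp hu.1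
    have hw₂ : w ∈ centralizer (E₂ : Set G) := hfix ⟨u, hu.2, rfl⟩
    have hw1 : w ≠ 1 := fun e => hu1 (conj_eq_one_iff.mp e)
    refine hn21 fun h hh => cj_eq_iff.mp ?_
    by_contra hne'
    obtain ⟨hd', -⟩ := hpair E₁ E₂ h₁ h₂.le h21 h (h₂.le hh) 1 (one_mem _) (by rw [cj_one]; exact hne')
    rw [cj_one] at hd'
    refine hw1 (Subgroup.mem_bot.mp (hd' ▸ ⟨⟨w, hw₁, ?_⟩, hw₁⟩))
    show h * w * h⁻¹ = w
    rw [Subgroup.mem_centralizer_iff.mp hw₂ h hh, mul_inv_cancel_right]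
  -- cardinalities
  have hcjle : ∀ X Y : Subgroup G, X ≤ E → Y ≤ E → ∀ g ∈ Y, cj g ⁅V, X⁆ ≤ ⁅V, X⁆ ⊔ ⁅V, Y⁆ := by
    rintro X Y hX hY g hg _ ⟨u, hu, rfl⟩
    show g * u * g⁻¹ ∈ _
    rw [show g * u * g⁻¹ = ⁅u, g⁆⁻¹ * u by simp only [commutatorElement_def]; group]
    exact mul_mem (mem_sup_right (inv_mem (commutator_mem_commutator (hF.plane_le hX hu) hg))) (mem_sup_left hu)
  have hcard : ∀ {X Y : Subgroup G}, X ≤ V → Y ≤ V → X ⊓ Y = ⊥ →
      Nat.card (X ⊔ Y : Subgroup G) = Nat.card X * Nat.card Y := fun {X Y} hX hY h => by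
    have := card_sup_mul_card_inf (hF.normV hY hX)
    rwa [h, Subgroup.card_bot, mul_one] at this
  obtain ⟨hd₁, hf₁⟩ := hpair E₁ E₂ h₁ h₂.le h21 g₂ hg₂E 1 (one_mem _) (by
    rw [cj_one]; exact fun e => hg₂' (cj_eq_iff.mp e))
  obtain ⟨hd₂, -⟩ := hpair E₂ E₁ h₂ h₁.le h12 g₁ hg₁E 1 (one_mem _) (by
    rw [cj_one]; exact fun e => hg₁' (cj_eq_iff.mp e))
  rw [cj_one] at hd₁ hf₁ hd₂
  set U₁' := cj g₂ U₁ with hU₁'
  have hU₁'S : U₁' ≤ U₁ ⊔ U₂ := hcjle E₁ E₂ h₁.le h₂.le g₂ hg₂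
  have hU₁'V : U₁' ≤ V := hU₁'S.trans (sup_le hU₁V hU₂V)
  have hU₂'V : cj g₁ U₂ ≤ V := (hcjle E₂ E₁ h₂.le h₁.le g₁ hg₁).trans (sup_le hU₂V hU₁V)
  have c1 := Subgroup.card_le_of_le (sup_le hU₁'S (le_sup_left : U₁ ≤ U₁ ⊔ U₂))
  rw [hcard hU₁'V hU₁V hd₁, hcard hU₁V hU₂V hdisj, card_cj] at c1
  have c2 := Subgroup.card_le_of_le (sup_le (hcjle E₂ E₁ h₂.le h₁.le g₁ hg₁) (le_sup_left : U₂ ≤ U₂ ⊔ U₁))
  rw [hcard hU₂'V hU₂V hd₂, sup_comm, hcard hU₁V hU₂V hdisj, card_cj, mul_comm (Nat.card U₁)] at c2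
  have hU12 : Nat.card U₁ = Nat.card U₂ :=
    le_antisymm (Nat.le_of_mul_le_mul_left c1 Nat.card_pos) (Nat.le_of_mul_le_mul_left c2 Nat.card_pos)
  have hS : U₁' ⊔ U₁ = U₁ ⊔ U₂ := Subgroup.eq_of_le_of_card_ge (sup_le hU₁'S le_sup_left) (by
    rw [hcard hU₁'V hU₁V hd₁, hcard hU₁V hU₂V hdisj, card_cj, hU12])
  -- the orbit of `U₁` under `E₂`
  have horb : ∀ h ∈ E₂, cj h U₁ = U₁ ∨ cj h U₁ = U₁' := by
    intro h hh
    by_contra hcon
    push Not at hcon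
    obtain ⟨hd, hf⟩ := hpair E₁ E₂ h₁ h₂.le h21 h (h₂.le hh) 1 (one_mem _) (by rw [cj_one]; exact hcon.1)
    obtain ⟨hd', -⟩ := hpair E₁ E₂ h₁ h₂.le h21 h (h₂.le hh) g₂ hg₂E hcon.2
    rw [cj_one] at hd hf
    have hne : cj h U₁ ≠ ⊥ := fun e => by
      have := card_cj h U₁
      rw [e, Subgroup.card_bot, eq_comm, Subgroup.card_eq_one] at this
      exact h12 (this.le.trans bot_le)
    obtain ⟨x, hx, hx1⟩ := (cj h U₁).bot_or_exists_ne_one.resolve_left hne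
    obtain ⟨v, hv, u, hu, rfl⟩ := Coprime.exists_mul_of_mem_sup (hF.normV hU₁'V hU₁V)
      (hS.ge (hcjle E₁ E₂ h₁.le h₂.le h hh hx))
    have hu1 : u = 1 := Subgroup.mem_bot.mp (hF.fix_trivial h₁ ▸ ⟨hu, by
      have h' := mul_mem (inv_mem (hf₁ hv)) (hf hx)
      rwa [inv_mul_cancel_left] at h'⟩)
    subst hu1
    rw [mul_one] at hx hx1
    exact hx1 (Subgroup.mem_bot.mp (hd' ▸ ⟨hx, hv⟩))
  have hne' : U₁' ≠ U₁ := fun e => hg₂' (cj_eq_iff.mp e)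
  -- the stabilizer is trivial
  set K := E₂ ⊓ centralizer ((U₁ ⊔ U₂ : Subgroup G) : Set G) with hK
  have hfix : ∀ h ∈ E₂, cj h U₁ = U₁ → ∀ u ∈ U₁, h * u * h⁻¹ = u := by
    intro h hh e u hu
    refine mul_inv_eq_one.mp (Subgroup.mem_bot.mp (hdisj ▸ ⟨(show h * u * h⁻¹ * u⁻¹ ∈ U₁ from mul_mem (e.le ⟨u, hu, rfl⟩) (inv_mem hu)), ?_⟩))
    show h * u * h⁻¹ * u⁻¹ ∈ U₂
    rw [show h * u * h⁻¹ * u⁻¹ = ⁅u, h⁆⁻¹ by simp only [commutatorElement_def]; group]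
    exact inv_mem (commutator_mem_commutator (hU₁V hu) hh)
  have hstab : ∀ h ∈ E₂, cj h U₁ = U₁ → h ∈ K := by
    intro h hh e
    have he' : cj h U₁' = U₁' := by
      rw [hU₁', cj_cj]
      refine (horb _ (mul_mem hh hg₂)).resolve_left fun e' => hne' ?_
      rw [← cj_cj] at e'
      have := congrArg (cj h⁻¹) (e'.trans e.symm)
      rwa [cj_cj, inv_mul_cancel, cj_one, cj_cj, inv_mul_cancel, cj_one] at this
    have hfix' : ∀ u ∈ U₁', h * u * h⁻¹ = u := by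
      rintro _ ⟨u, hu, rfl⟩
      show h * (g₂ * u * g₂⁻¹) * h⁻¹ = g₂ * u * g₂⁻¹
      have hh' : g₂⁻¹ * h * g₂ ∈ E₂ := mul_mem (mul_mem (inv_mem hg₂) hh) hg₂
      have e'' : cj (g₂⁻¹ * h * g₂) U₁ = U₁ := by
        rw [← cj_cj, ← cj_cj]
        show cj g₂⁻¹ (cj h U₁') = U₁
        rw [he', hU₁', cj_cj, inv_mul_cancel, cj_one]
      have := hfix _ hh' e'' u hu
      calc h * (g₂ * u * g₂⁻¹) * h⁻¹ = g₂ * ((g₂⁻¹ * h * g₂) * u * (g₂⁻¹ * h * g₂)⁻¹) * g₂⁻¹ := by group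
        _ = _ := by rw [this]
    refine ⟨hh, ?_⟩
    have hle : U₁ ⊔ U₂ ≤ centralizer ({h} : Set G) := by
      rw [← hS]
      refine sup_le (fun u hu => ?_) (fun u hu => ?_) <;> rw [Subgroup.mem_centralizer_singleton_iff]
      · exact (mul_inv_eq_iff_eq_mul.mp (hfix' u hu)).symm
      · exact (mul_inv_eq_iff_eq_mul.mp (hfix h hh e u hu)).symm
    exact Subgroup.mem_centralizer_iff.mpr fun u hu => Subgroup.mem_centralizer_singleton_iff.mp (hle hu)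
  have hS2 : E₂ ≤ normalizer ((U₁ ⊔ U₂ : Subgroup G) : Set G) := fun g hg => by
    refine mem_normalizer_fintype fun x hx => ?_
    rw [show g * x * g⁻¹ = ⁅x, g⁆⁻¹ * x by simp only [commutatorElement_def]; group]
    exact mul_mem (mem_sup_right (inv_mem (commutator_mem_commutator (sup_le hU₁V hU₂V hx) hg))) hx
  have hKn : E₂ ≤ normalizer (K : Set G) := fun g hg => mem_normalizer_fintype fun k hk => by
    have hk1 : k ∈ E₂ := hk.1
    refine ⟨(show g * k * g⁻¹ ∈ E₂ from mul_mem (mul_mem hg hk1) (inv_mem hg)), ?_⟩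
    show _ ∈ centralizer _
    rw [Subgroup.mem_centralizer_iff]
    intro x hx
    have := Subgroup.mem_centralizer_iff.mp hk.2 (g⁻¹ * x * g) ((mem_normalizer_iff''.mp (hS2 hg) x).mp hx)
    calc x * (g * k * g⁻¹) = g * ((g⁻¹ * x * g) * k) * g⁻¹ := by group
      _ = _ := by rw [this]; group
  have hKbot : K = ⊥ := by
    refine hF.eq_bot_of_series (inf_le_left.trans h₂.le) ?_ hU₂V (fun k hk v hv => ?_) ?_
    · refine Subgroup.IsSubnormal.trans (fun x hx => hx.1) (Subgroup.Normal.isSubnormal ⟨fun x hx g => ?_⟩) h₂.sn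
      exact (mem_normalizer_iff.mp (hKn g.2) _).mp hx
    · rw [show k * v * k⁻¹ * v⁻¹ = ⁅v, k⁆⁻¹ by simp only [commutatorElement_def]; group]
      exact inv_mem (commutator_mem_commutator hv hk.1)
    · exact inf_le_right.trans (Subgroup.centralizer_le (SetLike.coe_subset_coe.mpr le_sup_right))
  have htwo : ∀ h ∈ E₂, h = 1 ∨ h = g₂ := by
    intro h hh
    rcases horb h hh with e | e
    · exact Or.inl (Subgroup.mem_bot.mp (hKbot ▸ hstab h hh e))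
    · right
      have := Subgroup.mem_bot.mp (hKbot ▸ hstab (g₂⁻¹ * h) (mul_mem (inv_mem hg₂) hh) (by
        rw [← cj_cj, e, hU₁', cj_cj, inv_mul_cancel, cj_one]))
      exact (inv_mul_eq_one.mp this).symm
  have hle2 : Nat.card E₂ ≤ 2 := by
    classical
    refine (Nat.card_le_card_of_surjective (fun b : Bool => if b then (⟨g₂, hg₂⟩ : E₂) else 1) fun ⟨h, hh⟩ => ?_).trans
      (by rw [Nat.card_eq_fintype_card, Fintype.card_bool])
    rcases htwo h hh with e | e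
    · exact ⟨false, Subtype.ext e.symm⟩
    · exact ⟨true, Subtype.ext e.symm⟩
  exact absurd h₂.card (not_lt.mpr hle2)

end Cfsg.Agent.PLocal
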